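import Mathlib
import Cfsg.Prelude.Def_Blocks

/-!
# S4501 (helper2, team project): simple groups of order `4 p^a q^b` and `3 p^a q^b`, `a ≤ 2`

Exact statements of the pieces, as universe polymorphic `Prop`s.
-/

set_option autoImplicit false

namespace Cfsg.Agent.H2.Br

open Cfsg

universe u

/-- FAITH: nonprincipal irreducible characters of a nonabelian simple group are faithful and
nonlinear. -/
def StmtFaith : Prop :=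
  ∀ (G : Type u) [Group G] [Finite G] [IsSimpleGroup G], (∃ x y : G, x * y ≠ y * x) →
  ∀ χ : IrrCharacter G, (χ : G → ℂ) ≠ (fun _ => 1) →
    1 < charDegree (χ : G → ℂ) ∧ ∀ g : G, (χ : G → ℂ) g = (χ : G → ℂ) 1 → g = 1

/-- KLEIN: the principal `2`-block of a simple group of order `4 g₀` (`g₀` odd), normalized signs
`(1, ε, -1)`, with Brauer's order formula (S4479) multiplied out.  `J, t` are two commuting
involutions, `cP` is the order of the centralizer of a Sylow `2`-subgroup. -/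
def StmtKlein : Prop :=
  ∀ (G : Type u) [Group G] [Finite G] [IsSimpleGroup G], (∃ x y : G, x * y ≠ y * x) →
  ∀ (g₀ : ℕ), Odd g₀ → Nat.card G = 4 * g₀ →
  ∀ (J t : G), orderOf J = 2 → orderOf t = 2 → J ≠ t → J * t = t * J →
  ∃ (ζ₂ ζ₃ ζ₄ : IrrCharacter G) (ε : ℤ) (cP : ℕ), (ε = 1 ∨ ε = -1) ∧
    (ζ₂ : G → ℂ) ≠ (fun _ => 1) ∧ (ζ₃ : G → ℂ) ≠ (fun _ => 1) ∧ (ζ₄ : G → ℂ) ≠ (fun _ => 1) ∧
    (ζ₂ : G → ℂ) J = 1 ∧ (ζ₃ : G → ℂ) J = (ε : ℂ) ∧ (ζ₄ : G → ℂ) J = -1 ∧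
    (4 : ℤ) ∣ (charDegree (ζ₂ : G → ℂ) : ℤ) - 1 ∧
    (4 : ℤ) ∣ (charDegree (ζ₃ : G → ℂ) : ℤ) - ε ∧
    (4 : ℤ) ∣ (charDegree (ζ₄ : G → ℂ) : ℤ) + 1 ∧
    1 + (charDegree (ζ₂ : G → ℂ) : ℤ) + ε * (charDegree (ζ₃ : G → ℂ) : ℤ)
      - (charDegree (ζ₄ : G → ℂ) : ℤ) = 0 ∧
    0 < cP ∧ (cP = 4 ∨ ∃ y : G, y ≠ 1 ∧ Odd (orderOf y) ∧ y * J = J * y ∧ y * t = t * y) ∧
    (Nat.card G : ℤ) * (((charDegree (ζ₂ : G → ℂ) : ℤ) + 1) *
        ((charDegree (ζ₃ : G → ℂ) : ℤ) + ε) * ((charDegree (ζ₄ : G → ℂ) : ℤ) - 1)) * (cP : ℤ) ^ 2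
      = 8 * ((charDegree (ζ₂ : G → ℂ) : ℤ) * (charDegree (ζ₃ : G → ℂ) : ℤ) *
          (charDegree (ζ₄ : G → ℂ) : ℤ)) *
        (Nat.card (Subgroup.centralizer ({J} : Set G)) : ℤ) ^ 3

/-- ARITH4: the arithmetic of the Klein four case. -/
def StmtArith4 : Prop :=
  ∀ (p q a b : ℕ), p.Prime → q.Prime → p ≠ q → p ≠ 2 → q ≠ 2 →
  ∀ (A B C cJ cP : ℕ) (ε : ℤ), (ε = 1 ∨ ε = -1) →
    A ∣ 4 * p ^ a * q ^ b → B ∣ 4 * p ^ a * q ^ b → C ∣ 4 * p ^ a * q ^ b →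
    1 < A → 1 < B → 1 < C →
    (4 : ℤ) ∣ (A : ℤ) - 1 → (4 : ℤ) ∣ (B : ℤ) - ε → (4 : ℤ) ∣ (C : ℤ) + 1 →
    1 + (A : ℤ) + ε * (B : ℤ) - (C : ℤ) = 0 →
    cJ ∣ 4 * p ^ a * q ^ b → 0 < cP →
    ((4 * p ^ a * q ^ b : ℕ) : ℤ) * (((A : ℤ) + 1) * ((B : ℤ) + ε) * ((C : ℤ) - 1)) * (cP : ℤ) ^ 2
      = 8 * ((A : ℤ) * (B : ℤ) * (C : ℤ)) * (cJ : ℤ) ^ 3 →
    ε = -1 ∧ A = 5 ∧ B = 3 ∧ C = 3

/-- CENT4: an irreducible character of degree `4` forces `C(P) = P` for a four-group Sylow. -/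
def StmtCent4 : Prop :=
  ∀ (G : Type u) [Group G] [Finite G] [IsSimpleGroup G], (∃ x y : G, x * y ≠ y * x) →
  ∀ (g₀ : ℕ), Odd g₀ → Nat.card G = 4 * g₀ →
  ∀ χ : IrrCharacter G, charDegree (χ : G → ℂ) = 4 →
  ∀ (J t y : G), orderOf J = 2 → orderOf t = 2 → J ≠ t → J * t = t * J →
    Odd (orderOf y) → y * J = J * y → y * t = t * y → y = 1

/-- FPFINV: a fixed-point-free involution inverts a subgroup of odd order. -/
def StmtFpfInv : Prop :=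
  ∀ (G : Type u) [Group G] [Finite G] (K : Subgroup G) (t : G), t * t = 1 →
    (∀ k ∈ K, t * k * t⁻¹ ∈ K) → Odd (Nat.card K) → (∀ k ∈ K, t * k * t⁻¹ = k → k = 1) →
    ∀ k ∈ K, t * k * t⁻¹ = k⁻¹

/-- DEG3CENT: in a faithful irreducible representation of degree `3` in which the involution `J`
has trace `-1`, an element `k ≠ 1` of odd order centralizing `J` and inverted by `t ∈ C(J)`
has three distinct eigenvalues, so `C(k) ≤ C(J)`. -/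
def StmtDeg3Cent : Prop :=
  ∀ (G : Type u) [Group G] [Finite G] (ζ : IrrCharacter G), charDegree (ζ : G → ℂ) = 3 →
    (∀ g : G, (ζ : G → ℂ) g = (ζ : G → ℂ) 1 → g = 1) →
  ∀ (J t k : G), orderOf J = 2 → t * t = 1 → J * t = t * J → (ζ : G → ℂ) J = -1 →
    k ≠ 1 → Odd (orderOf k) → k * J = J * k → t * k * t⁻¹ = k⁻¹ →
    ∀ g : G, g * k = k * g → g * J = J * g

/-- DEG4: a character of degree `4` (from S4500). -/
def StmtDeg4 : Prop :=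
  ∀ (G : Type u) [Group G] [Finite G] [IsSimpleGroup G], (∃ x y : G, x * y ≠ y * x) →
  ∀ (p q a b : ℕ), p.Prime → q.Prime → p ≠ q → p ≠ 2 → q ≠ 2 → a ≤ 2 →
    Nat.card G = 4 * p ^ a * q ^ b → ∃ χ : IrrCharacter G, charDegree (χ : G → ℂ) = 4

/-- KILLK: the final Sylow argument. -/
def StmtKillK : Prop :=
  ∀ (G : Type u) [Group G] [Finite G] (J : G) (K : Subgroup G),
    (∀ g : G, g ∈ K ↔ Odd (orderOf g) ∧ g * J = J * g) →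
    (∀ k ∈ K, k ≠ 1 → ∀ g : G, g * k = k * g → g * J = J * g) →
    Nat.card G = 60 * Nat.card K ^ 3 → Nat.card K = 1

/-- PART 1. -/
def StmtPart1 : Prop :=
  ∀ (G : Type u) [Group G] [Finite G] [IsSimpleGroup G], (∃ x y : G, x * y ≠ y * x) →
  ∀ (p q a b : ℕ), p.Prime → q.Prime → p ≠ q → a ≤ 2 → Nat.card G = 4 * p ^ a * q ^ b →
    Nonempty (G ≃* alternatingGroup (Fin 5))

/-- The exceptional characters of a self-centralizing real element `z` of order `3`. -/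
def Exc3Data (G : Type u) [Group G] (z : G) (χa χb : IrrCharacter G) (sa sb : ℤ) : Prop :=
  (χa : G → ℂ) ≠ (fun _ => 1) ∧ (χb : G → ℂ) ≠ (fun _ => 1) ∧ χa ≠ χb ∧
  (sa = 1 ∨ sa = -1) ∧ (sb = 1 ∨ sb = -1) ∧
  (χa : G → ℂ) z = (sa : ℂ) ∧ (χb : G → ℂ) z = (sb : ℂ) ∧
  (3 : ℤ) ∣ (charDegree (χa : G → ℂ) : ℤ) - sa ∧ (3 : ℤ) ∣ (charDegree (χb : G → ℂ) : ℤ) - sb ∧
  (∀ χ : IrrCharacter G, (χ : G → ℂ) ≠ (fun _ => 1) → χ ≠ χa → χ ≠ χb → (χ : G → ℂ) z = 0) ∧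
  ∀ g : G, ¬ IsConj g z → 1 + (sa : ℂ) * (χa : G → ℂ) g + (sb : ℂ) * (χb : G → ℂ) g = 0

/-- EXC3. -/
def StmtExc3 : Prop :=
  ∀ (G : Type u) [Group G] [Finite G] (z : G), orderOf z = 3 →
    (∀ g : G, g * z = z * g → g ∈ Subgroup.zpowers z) → (∃ g : G, g * z * g⁻¹ = z⁻¹) →
    ∃ (χa χb : IrrCharacter G) (sa sb : ℤ), Exc3Data G z χa χb sa sb

/-- COUNT3: the class multiplication constant (involution, involution; `z`) is `0` or `3`. -/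
def StmtCount3 : Prop :=
  ∀ (G : Type u) [Group G] [Finite G] (z J : G), orderOf z = 3 →
    (∀ g : G, g * z = z * g → g ∈ Subgroup.zpowers z) → (∃ g : G, g * z * g⁻¹ = z⁻¹) →
    orderOf J = 2 →
    (∑ᶠ χ : IrrCharacter G, (χ : G → ℂ) J * (χ : G → ℂ) J * (χ : G → ℂ) z / (χ : G → ℂ) 1) ≠ 0 →
    (Nat.card G : ℂ) *
        (∑ᶠ χ : IrrCharacter G, (χ : G → ℂ) J * (χ : G → ℂ) J * (χ : G → ℂ) z / (χ : G → ℂ) 1)
      = 3 * (Nat.card (Subgroup.centralizer ({J} : Set G)) : ℂ) ^ 2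

/-- FORMULA3: Brauer's order formula for `p = 3`. -/
def StmtFormula3 : Prop :=
  ∀ (G : Type u) [Group G] [Finite G] [IsSimpleGroup G], (∃ x y : G, x * y ≠ y * x) →
  ∀ (z J : G), orderOf z = 3 → (∀ g : G, g * z = z * g → g ∈ Subgroup.zpowers z) →
    (∃ g : G, g * z * g⁻¹ = z⁻¹) → orderOf J = 2 →
  ∀ (χa χb : IrrCharacter G) (sa sb : ℤ), Exc3Data G z χa χb sa sb →
    ∃ u : ℤ, (χa : G → ℂ) J = (u : ℂ) ∧ -(charDegree (χa : G → ℂ) : ℤ) < u ∧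
      u < (charDegree (χa : G → ℂ) : ℤ) ∧
      (Nat.card G : ℤ) * ((charDegree (χa : G → ℂ) : ℤ) - u) ^ 2
        = 3 * (Nat.card (Subgroup.centralizer ({J} : Set G)) : ℤ) ^ 2 *
          (charDegree (χa : G → ℂ) : ℤ) * (charDegree (χb : G → ℂ) : ℤ)

/-- ARITH3: the arithmetic of the case `|G| = 3 p^a 2^b`. -/
def StmtArith3 : Prop :=
  ∀ (p a b : ℕ), p.Prime → p ≠ 2 → p ≠ 3 → p < 16 → a ≤ 2 →
  ∀ (A B c₀ : ℕ) (sa sb u w : ℤ), (sa = 1 ∨ sa = -1) → (sb = 1 ∨ sb = -1) →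
    A ∣ 3 * p ^ a * 2 ^ b → B ∣ 3 * p ^ a * 2 ^ b → 1 < A → 1 < B → ¬ 3 ∣ A → ¬ 3 ∣ B →
    1 + sa * (A : ℤ) + sb * (B : ℤ) = 0 →
    c₀ ∣ 3 * p ^ a * 2 ^ b → 2 ^ b ∣ c₀ → ¬ 3 ∣ c₀ →
    -(A : ℤ) < u → u < (A : ℤ) → -(B : ℤ) < w → w < (B : ℤ) →
    ((3 * p ^ a * 2 ^ b : ℕ) : ℤ) * ((A : ℤ) - u) ^ 2 = 3 * (c₀ : ℤ) ^ 2 * (A : ℤ) * (B : ℤ) →
    ((3 * p ^ a * 2 ^ b : ℕ) : ℤ) * ((B : ℤ) - w) ^ 2 = 3 * (c₀ : ℤ) ^ 2 * (A : ℤ) * (B : ℤ) →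
    3 * p ^ a * 2 ^ b = 60 ∨ 3 * p ^ a * 2 ^ b = 168

/-- SMALLP: a character of degree `3` (S4500) and Feit–Thompson–Blichfeldt (S0899). -/
def StmtSmallP : Prop :=
  ∀ (G : Type u) [Group G] [Finite G] [IsSimpleGroup G], (∃ x y : G, x * y ≠ y * x) →
  ∀ (p a b : ℕ), p.Prime → p ≠ 2 → p ≠ 3 → 1 ≤ a → a ≤ 2 →
    Nat.card G = 3 * p ^ a * 2 ^ b → p < 16

/-- CENTRALINV: a `2`-central involution. -/
def StmtCentralInv : Prop :=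
  ∀ (G : Type u) [Group G] [Finite G], 2 ∣ Nat.card G →
    ∃ J : G, orderOf J = 2 ∧
      ∀ k : ℕ, 2 ^ k ∣ Nat.card G → 2 ^ k ∣ Nat.card (Subgroup.centralizer ({J} : Set G))

/-- NOSIX: no involution centralizes an element of order `3`. -/
def StmtNoSix : Prop :=
  ∀ (G : Type u) [Group G] [Finite G] (z J : G), orderOf z = 3 →
    (∀ g : G, g * z = z * g → g ∈ Subgroup.zpowers z) → ¬ 9 ∣ Nat.card G → orderOf J = 2 →
    ¬ 3 ∣ Nat.card (Subgroup.centralizer ({J} : Set G))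

/-- Z3: the self-centralizing real element of order `3` (S0904 and Burnside's transfer). -/
def StmtZ3 : Prop :=
  ∀ (G : Type u) [Group G] [Finite G] [IsSimpleGroup G], (∃ x y : G, x * y ≠ y * x) →
  ∀ (p q a b : ℕ), p.Prime → q.Prime → p ≠ q → p ≠ 3 → q ≠ 3 →
    Nat.card G = 3 * p ^ a * q ^ b →
    ∃ z : G, orderOf z = 3 ∧ (∀ g : G, g * z = z * g → g ∈ Subgroup.zpowers z) ∧
      (∃ g : G, g * z * g⁻¹ = z⁻¹) ∧ 2 ∣ Nat.card G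

/-- TWOODD: a nonabelian simple group of even order has order divisible by `4`. -/
def StmtTwoOdd : Prop :=
  ∀ (G : Type u) [Group G] [Finite G] [IsSimpleGroup G], (∃ x y : G, x * y ≠ y * x) →
    2 ∣ Nat.card G → 4 ∣ Nat.card G

/-- PART 2. -/
def StmtPart2 : Prop :=
  ∀ (G : Type u) [Group G] [Finite G] [IsSimpleGroup G], (∃ x y : G, x * y ≠ y * x) →
  ∀ (p q a b : ℕ), p.Prime → q.Prime → p ≠ q → a ≤ 2 → Nat.card G = 3 * p ^ a * q ^ b →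
    Nonempty (G ≃* alternatingGroup (Fin 5)) ∨
      Nonempty (G ≃* Matrix.ProjectiveSpecialLinearGroup (Fin 2) (ZMod 7))

end Cfsg.Agent.H2.Br
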