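import Cfsg.Agent.H81.GL23Defs
import Cfsg.Agent.H81.Reg
import Cfsg.Agent.H4.RealClasses
import Cfsg.Agent.H4.PaQb

/-!
# S0197-BRIDGE (helper2, for helper81)

From the five generalized characters (`Data`), perfectness and the two class constants to the
abstract lattice hypotheses `AbsHyp` on `ι = IrrCharacter G`.
-/

set_option autoImplicit false
set_option maxHeartbeats 800000

namespace Cfsg.Agent.H2.GL23

open Cfsg Cfsg.Agent.H81.GL23
open scoped ComplexConjugate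

universe u

theorem conj_of_sq {s : ℂ} (hs : s ^ 2 = -2) : conj s = -s ∧ s.im ≠ 0 := by
  have h1 := congrArg Complex.re hs
  have h2 := congrArg Complex.im hs
  simp only [pow_two, Complex.mul_re, Complex.mul_im, Complex.neg_re, Complex.neg_im,
    Complex.re_ofNat, Complex.im_ofNat] at h1 h2
  have hre : s.re = 0 := by
    by_contra hne
    have him : s.im = 0 := by
      have h3 : s.re * s.im = 0 := by linarith
      rcases mul_eq_zero.mp h3 with h4 | h4
      · exact absurd h4 hne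
      · exact h4
    rw [him] at h1
    nlinarith [sq_nonneg s.re]
  refine ⟨?_, ?_⟩
  · apply Complex.ext
    · simp [hre]
    · simp
  · intro him
    rw [hre, him] at h1
    norm_num at h1

theorem bridge (hV : Cfsg.Agent.H81.GL23.StmtGenVec.{u}) :
    Cfsg.Agent.H81.GL23.StmtBridge.{u} := by
  intro G _ _ t x s M P hD hperf h32 hP hcc1 hcc2
  classical
  letI inst : Fintype (IrrCharacter G) := Cfsg.Agent.H4.fintypeIrr G
  obtain ⟨c, hc1, hc2, hc3⟩ := hV 5 M hD.gen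
  obtain ⟨i₀, hi₀⟩ : ∃ i₀ : IrrCharacter G, (i₀ : G → ℂ) = fun _ => 1 :=
    ⟨⟨fun _ => 1, Cfsg.Agent.H4.isIrrCharacter_one⟩, rfl⟩
  obtain ⟨bar, hbar⟩ : ∃ bar : IrrCharacter G → IrrCharacter G,
      ∀ (χ : IrrCharacter G) (g : G), (bar χ : G → ℂ) g = conj ((χ : G → ℂ) g) :=
    ⟨Cfsg.Agent.H4.irrConj, fun _ _ => rfl⟩
  obtain ⟨d, hd⟩ : ∃ d : IrrCharacter G → ℕ, ∀ χ, d χ = charDegree (χ : G → ℂ) :=
    ⟨_, fun _ => rfl⟩
  have hd1 : ∀ χ : IrrCharacter G, (χ : G → ℂ) 1 = (d χ : ℂ) := fun χ => by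
    rw [hd χ]; exact (Cfsg.Agent.H81.irr_charDegree χ).1
  have hdpos : ∀ χ : IrrCharacter G, 0 < d χ := fun χ => by
    rw [hd χ]; exact (Cfsg.Agent.H81.irr_charDegree χ).2
  obtain ⟨hsconj, hsim⟩ := conj_of_sq hD.hs
  -- inner products with conjugate characters
  have hconjinner : ∀ (χ : IrrCharacter G) (F F' : G → ℂ), (∀ g, F g = conj (F' g)) →
      classInner (bar χ : G → ℂ) F = conj (classInner (χ : G → ℂ) F') := by
    intro χ F F' hF
    unfold classInner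
    rw [map_mul, map_sum, map_inv₀, Complex.conj_natCast]
    congr 1
    apply Finset.sum_congr rfl
    intro g _
    rw [hbar χ g, map_mul, hF g]
  have hcbar : ∀ (χ : IrrCharacter G) (k l : Fin 5), (∀ g, M k g = conj (M l g)) →
      c (bar χ) k = c χ l := by
    intro χ k l hkl
    have h1 := hconjinner χ (M k) (M l) hkl
    rw [hc2 (bar χ) k, hc2 χ l, map_intCast] at h1
    exact Int.cast_injective h1
  -- values of the irreducible characters
  have hvalT : ∀ χ : IrrCharacter G, (χ : G → ℂ) t = ((vt (c χ) : ℤ) : ℂ) := by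
    intro χ
    have h1 := hD.valT χ.1 χ.2
    rw [hc2 χ 0, hc2 χ 1, hc2 χ 2, hc2 χ 3, hc2 χ 4] at h1
    rw [h1]
    unfold vt
    push_cast
    ring
  have hvalY : ∀ χ : IrrCharacter G, (χ : G → ℂ) (x ^ 2) = ((c χ 2 : ℤ) : ℂ) + ((c χ 3 : ℤ) : ℂ) := by
    intro χ
    have h1 := hD.valY χ.1 χ.2
    rw [hc2 χ 2, hc2 χ 3] at h1
    exact h1
  have hvalX : ∀ χ : IrrCharacter G, (χ : G → ℂ) x⁻¹ =
      -s * (((c χ 0 : ℤ) : ℂ) - ((c χ 1 : ℤ) : ℂ)) + (((c χ 2 : ℤ) : ℂ) - ((c χ 3 : ℤ) : ℂ)) := by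
    intro χ
    have h1 := hD.valX χ.1 χ.2
    rw [hc2 χ 0, hc2 χ 1, hc2 χ 2, hc2 χ 3] at h1
    have h2 : (χ : G → ℂ) x⁻¹ = conj ((χ : G → ℂ) x) := Cfsg.Agent.H4.irr_inv χ x
    rw [h2, h1]
    simp only [map_add, map_sub, map_mul, map_intCast, hsconj]
    ring
  refine ⟨inst, i₀, bar, d, c, ?_⟩
  refine { bar_invol := ?_, bar0 := ?_, dpos := hdpos, dbar := ?_, d0 := ?_, lin := ?_,
           u0 := ?_, ubar := ?_, gram := ?_, deg := ?_, e3 := ?_, e2 := ?_, hP := hP,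
           h32 := h32 }
  · -- bar_invol
    intro χ
    apply Subtype.ext
    funext g
    rw [hbar (bar χ) g, hbar χ g, Complex.conj_conj]
  · -- bar0
    apply Subtype.ext
    funext g
    rw [hbar i₀ g, hi₀, map_one]
  · -- dbar
    intro χ
    have h1 := hd1 (bar χ)
    rw [hbar χ 1, hd1 χ, Complex.conj_natCast] at h1
    exact (Nat.cast_injective h1).symm
  · -- d0
    have h1 : (1 : ℂ) = (d i₀ : ℂ) := by rw [← hd1 i₀, hi₀]
    exact_mod_cast h1.symm
  · -- lin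
    intro χ hχ
    have h1 := hd1 χ
    rw [hχ, Nat.cast_one] at h1
    apply Subtype.ext
    rw [hi₀]
    exact hperf χ.1 χ.2 h1
  · -- u0
    funext k
    have h1 := hc2 i₀ k
    have h2 := Cfsg.Agent.H4.classInner_conj_symm (i₀ : G → ℂ) (M k)
    have h3 : classInner (M k) (i₀ : G → ℂ) = (T0 k : ℂ) := by
      rw [hi₀]; exact hD.triv k
    rw [h3, h1, map_intCast] at h2
    exact (Int.cast_injective h2).symm
  · -- ubar
    intro χ
    refine ⟨?_, ?_, ?_, ?_, ?_⟩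
    · exact hcbar χ 0 1 (fun g => by rw [hD.conj01 g, Complex.conj_conj])
    · exact hcbar χ 1 0 (fun g => hD.conj01 g)
    · exact hcbar χ 2 2 (fun g => ((hD.real g).1).symm)
    · exact hcbar χ 3 3 (fun g => ((hD.real g).2.1).symm)
    · exact hcbar χ 4 4 (fun g => ((hD.real g).2.2).symm)
  · -- gram
    intro k l
    have h1 := hc3 k l
    rw [hD.gram k l] at h1
    have h2 : ((Gm k l : ℤ) : ℂ) = ((∑ χ : IrrCharacter G, c χ k * c χ l : ℤ) : ℂ) := by
      push_cast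
      exact h1
    exact (Int.cast_injective h2).symm
  · -- deg
    intro k
    have h1 := hc1 k 1
    rw [hD.deg k] at h1
    have h2 : ((∑ χ : IrrCharacter G, c χ k * (d χ : ℤ) : ℤ) : ℂ) = ((0 : ℤ) : ℂ) := by
      push_cast
      rw [h1]
      apply Finset.sum_congr rfl
      intro χ _
      rw [hd1 χ]
    exact Int.cast_injective h2
  · -- e3
    rw [finsum_eq_sum_of_fintype] at hcc1
    obtain ⟨Aq, hAq⟩ : ∃ Aq : ℚ, Aq = ∑ χ : IrrCharacter G,
        ((vt (c χ)) ^ 2 * (c χ 0 - c χ 1) : ℚ) / (d χ : ℚ) := ⟨_, rfl⟩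
    obtain ⟨Bq, hBq⟩ : ∃ Bq : ℚ, Bq = ∑ χ : IrrCharacter G,
        ((vt (c χ)) ^ 2 * (c χ 2 - c χ 3) : ℚ) / (d χ : ℚ) := ⟨_, rfl⟩
    have hsum : -s * ((Aq : ℝ) : ℂ) + ((Bq : ℝ) : ℂ) = 0 := by
      rw [← hcc1, hAq, hBq]
      push_cast
      rw [Finset.mul_sum, ← Finset.sum_add_distrib]
      apply Finset.sum_congr rfl
      intro χ _
      rw [hvalT χ, hvalX χ, hd1 χ]
      push_cast
      ring
    have him := congrArg Complex.im hsum
    simp only [Complex.add_im, Complex.mul_im, Complex.neg_im, Complex.neg_re,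
      Complex.ofReal_im, Complex.ofReal_re, Complex.zero_im, mul_zero, add_zero] at him
    have hA0 : (Aq : ℝ) = 0 := by
      have h4 : s.im * (Aq : ℝ) = 0 := by linarith
      rcases mul_eq_zero.mp h4 with h5 | h5
      · exact absurd h5 hsim
      · exact h5
    rw [hA0] at hsum
    have hB0 : ((Bq : ℝ) : ℂ) = 0 := by
      simpa using hsum
    have hB0' : (Bq : ℝ) = 0 := by exact_mod_cast hB0
    have hB0'' : Bq = 0 := by exact_mod_cast hB0'
    rw [← hBq]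
    exact hB0''
  · -- e2
    rw [finsum_eq_sum_of_fintype] at hcc2
    have h2 : (((Nat.card G : ℚ) * ∑ χ : IrrCharacter G,
        ((vt (c χ)) ^ 2 * (c χ 2 + c χ 3) : ℚ) / (d χ : ℚ) : ℚ) : ℂ) =
        ((2304 * (P : ℚ) : ℚ) : ℂ) := by
      push_cast
      rw [← hcc2]
      congr 1
      apply Finset.sum_congr rfl
      intro χ _
      rw [hvalT χ, hvalY χ, hd1 χ]
    exact_mod_cast h2

example : Cfsg.Agent.H81.GL23.StmtBridge.{u} = (∀ {G : Type u} [Group G] [Fintype G] (t x : G) (s : ℂ) (M : Fin 5 → G → ℂ) (P : ℕ),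
    Data t x s M →
    (∀ χ : G → ℂ, IsIrrCharacter G χ → χ 1 = 1 → χ = fun _ => 1) →
    ¬ 32 ∣ Nat.card G → (P = 0 ∨ P = 4) →
    (∑ᶠ χ : IrrCharacter G,
        ((χ : G → ℂ) t) ^ 2 * (χ : G → ℂ) x⁻¹ / (χ : G → ℂ) 1 = 0) →
    ((Nat.card G : ℂ) * ∑ᶠ χ : IrrCharacter G,
        ((χ : G → ℂ) t) ^ 2 * (χ : G → ℂ) (x ^ 2) / (χ : G → ℂ) 1 = 2304 * (P : ℂ)) →
    ∃ (inst : Fintype (IrrCharacter G)) (i₀ : IrrCharacter G)
      (bar : IrrCharacter G → IrrCharacter G) (d : IrrCharacter G → ℕ)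
      (u : IrrCharacter G → Fin 5 → ℤ), @AbsHyp _ inst (Nat.card G) i₀ bar d u P) := rfl

end Cfsg.Agent.H2.GL23
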