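import Cfsg.Agent.H2.Tate
import Cfsg.Agent.H3.PGroup

/-!
# Control of transfer implies control of `O^p` (Tate), and Grün-type consequences
-/

set_option autoImplicit false

namespace Cfsg.Agent.H2

open Subgroup
open scoped commutatorElement

universe u

/-- `O^p(V) ≤ O^p(G)` for a subgroup `V` of `G`. -/
theorem pResidual_le_subgroupOf {G : Type u} [Group G] (p : ℕ) (V : Subgroup G) :
    Cfsg.pResidual p ↥V ≤ (Cfsg.pResidual p G).subgroupOf V := by
  show Subgroup.closure {v : ↥V | Nat.Coprime (orderOf v) p} ≤ _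
  rw [Subgroup.closure_le]
  intro v hv
  rw [SetLike.mem_coe, mem_subgroupOf]
  apply Subgroup.subset_closure
  show Nat.Coprime (orderOf (v : G)) p
  rw [Subgroup.orderOf_coe]
  exact hv

/-- **Tate's theorem** (control of transfer implies control of `O^p`): if `V` contains the Sylow
`p`-subgroup `P` and `G' ∩ P ≤ V'`, then `O^p(G) ∩ V = O^p(V)`. -/
theorem pResidual_subgroupOf_eq_of_commutator_inf_le {G : Type u} [Group G] [Finite G] {p : ℕ}
    [Fact p.Prime] (P : Sylow p G) (V : Subgroup G) (hPV : (P : Subgroup G) ≤ V)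
    (hfoc : commutator G ⊓ (P : Subgroup G) ≤ ⁅V, V⁆) :
    (Cfsg.pResidual p G).subgroupOf V = Cfsg.pResidual p ↥V := by
  have hp : p.Prime := Fact.out
  have hVn : (Cfsg.pResidual p ↥V).Normal := H53.pResidual_normal p ↥V
  have hle := pResidual_le_subgroupOf p V
  apply le_antisymm _ hle
  have hH : ¬ p ∣ V.index := fun h => P.not_dvd_index (h.trans (Subgroup.index_dvd_of_le hPV))
  have hQ : IsPGroup p (↥V ⧸ Cfsg.pResidual p ↥V) := H53.isPGroup_quotient_pResidual p ↥V
  have h1 := tate_aux V hH hQ (QuotientGroup.mk' (Cfsg.pResidual p ↥V))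
    (QuotientGroup.mk'_surjective _) (by rw [QuotientGroup.ker_mk']; exact hle) ?_
  · rw [QuotientGroup.ker_mk'] at h1
    exact h1
  · rintro _ ⟨v, hv, rfl⟩
    simp only [frattini, Order.radical, Subgroup.mem_iInf]
    intro M hM
    have hMn : M.Normal := H3.coatom_normal hQ hM
    have hMi : M.index = p := H3.coatom_index hQ hM
    have hcomm : commutator (↥V ⧸ Cfsg.pResidual p ↥V) ≤ M := by
      rw [← Subgroup.Normal.quotient_commutative_iff_commutator_le]
      have hc : Nat.card ((↥V ⧸ Cfsg.pResidual p ↥V) ⧸ M) = p := by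
        rw [← Subgroup.index_eq_card]; exact hMi
      have hcyc : IsCyclic ((↥V ⧸ Cfsg.pResidual p ↥V) ⧸ M) := isCyclic_of_prime_card hc
      exact IsCyclic.isMulCommutative
    have hsup := sylow_sup_pResidual_eq_top (P.subtype hPV)
    have hv' : v ∈ ((P.subtype hPV : Sylow p ↥V) : Subgroup ↥V) ⊔ Cfsg.pResidual p ↥V :=
      hsup ▸ Subgroup.mem_top v
    rw [← SetLike.mem_coe, Subgroup.mul_normal] at hv'
    obtain ⟨u, hu, w, hw, rfl⟩ := Set.mem_mul.mp hv'
    have huP : (u : G) ∈ (P : Subgroup G) := by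
      have h2 : u ∈ ((P.subtype hPV : Sylow p ↥V) : Subgroup ↥V) := hu
      rw [Sylow.coe_subtype, mem_subgroupOf] at h2
      exact h2
    have hwV : w ∈ Cfsg.pResidual p ↥V := hw
    have hwK : (w : G) ∈ Cfsg.pResidual p G := hle hwV
    have huK : (u : G) ∈ Cfsg.pResidual p G := by
      have h2 : ((u * w : ↥V) : G) ∈ Cfsg.pResidual p G := hv
      have h3 : (u : G) = ((u * w : ↥V) : G) * (w : G)⁻¹ := by simp
      rw [h3]
      exact Subgroup.mul_mem _ h2 (Subgroup.inv_mem _ hwK)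
    have hucomm : (u : G) ∈ commutator G :=
      inf_pResidual_le_commutator P.isPGroup' (Subgroup.mem_inf.mpr ⟨huP, huK⟩)
    have huVV : (u : G) ∈ ⁅V, V⁆ := hfoc (Subgroup.mem_inf.mpr ⟨hucomm, huP⟩)
    rw [← Subgroup.map_subtype_commutator] at huVV
    obtain ⟨c, hc, hcu⟩ := huVV
    have hcu' : c = u := Subtype.ext hcu
    rw [hcu'] at hc
    have h4 : (QuotientGroup.mk' (Cfsg.pResidual p ↥V)) (u * w) =
        QuotientGroup.mk' (Cfsg.pResidual p ↥V) u := by
      rw [map_mul, QuotientGroup.mk'_apply, QuotientGroup.mk'_apply,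
        (QuotientGroup.eq_one_iff w).mpr hwV, mul_one]
    rw [h4]
    apply hcomm
    have h5 : (commutator ↥V).map (QuotientGroup.mk' (Cfsg.pResidual p ↥V)) ≤
        commutator (↥V ⧸ Cfsg.pResidual p ↥V) := by
      rw [commutator_def, Subgroup.map_commutator, commutator_def]
      exact Subgroup.commutator_mono le_top le_top
    exact h5 (Subgroup.mem_map_of_mem _ hc)

/-- Tate's theorem in intersection form: `P ∩ O^p(G) = P ∩ O^p(V)`. -/
theorem sylow_inf_pResidual_eq_of_commutator_inf_le {G : Type u} [Group G] [Finite G] {p : ℕ}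
    [Fact p.Prime] (P : Sylow p G) (V : Subgroup G) (hPV : (P : Subgroup G) ≤ V)
    (hfoc : commutator G ⊓ (P : Subgroup G) ≤ ⁅V, V⁆) :
    (P : Subgroup G) ⊓ Cfsg.pResidual p G =
      (P : Subgroup G) ⊓ (Cfsg.pResidual p ↥V).map V.subtype := by
  have h1 := pResidual_subgroupOf_eq_of_commutator_inf_le P V hPV hfoc
  apply le_antisymm
  · intro x hx
    refine Subgroup.mem_inf.mpr ⟨hx.1, ⟨⟨x, hPV hx.1⟩, ?_, rfl⟩⟩
    rw [SetLike.mem_coe, ← h1, mem_subgroupOf]
    exact hx.2
  · rintro x ⟨hxP, w, hw, rfl⟩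
    exact Subgroup.mem_inf.mpr ⟨hxP, pResidual_le_subgroupOf p V hw⟩

end Cfsg.Agent.H2
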