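import Mathlib

/-!
# Finite subgroups of odd order of `SL₂(F)`, `char F = p` odd, are `p`-closed

Elementary proof: for a prime `r ≠ p` a Sylow `r`-subgroup `R` is abelian (it centralises a
non-scalar central element, whose centraliser in `M₂(F)` is commutative) and `N(R) = C(R)`
(a conjugate of a regular semisimple `g` inside `F[g]` is `g` or `g⁻¹`, and odd order excludes
inversion).  Burnside's transfer theorem then yields a normal `r`-complement and induction applies.
-/

set_option autoImplicit false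

namespace Cfsg.Agent.H2

open Matrix

universe u v

section mat

variable {F : Type v} [Field F]

/-- A `2×2` matrix commuting with a non-scalar matrix `g` has the form `a + b g`. -/
theorem mat2_comm_form (g h : Matrix (Fin 2) (Fin 2) F)
    (hg : g 0 1 ≠ 0 ∨ g 1 0 ≠ 0 ∨ g 0 0 ≠ g 1 1) (hc : h * g = g * h) :
    ∃ a b : F, h = a • (1 : Matrix (Fin 2) (Fin 2) F) + b • g := by
  have e00 := congrFun (congrFun hc 0) 0
  have e01 := congrFun (congrFun hc 0) 1
  have e10 := congrFun (congrFun hc 1) 0
  simp only [Matrix.mul_apply, Fin.sum_univ_two] at e00 e01 e10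
  by_cases h1 : g 0 1 = 0
  · by_cases h2 : g 1 0 = 0
    · have h3 : g 0 0 ≠ g 1 1 := by
        rcases hg with h | h | h
        exacts [absurd h1 h, absurd h2 h, h]
      have h4 : g 0 0 - g 1 1 ≠ 0 := sub_ne_zero.mpr h3
      obtain ⟨b, hb⟩ : ∃ b : F, b * (g 0 0 - g 1 1) = h 0 0 - h 1 1 :=
        ⟨(h 0 0 - h 1 1) / (g 0 0 - g 1 1), div_mul_cancel₀ _ h4⟩
      rw [h1] at e01
      rw [h2] at e10
      have k01 : h 0 1 = 0 := by
        apply mul_left_cancel₀ h4
        linear_combination (-1 : F) * e01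
      have k10 : h 1 0 = 0 := by
        apply mul_left_cancel₀ h4
        linear_combination e10
      refine ⟨h 0 0 - b * g 0 0, b, ?_⟩
      ext i j
      fin_cases i <;> fin_cases j
      · simp
      · simp [h1, k01]
      · simp [h2, k10]
      · simp
        linear_combination hb
    · obtain ⟨b, hb⟩ : ∃ b : F, b * g 1 0 = h 1 0 := ⟨h 1 0 / g 1 0, div_mul_cancel₀ _ h2⟩
      have k01 : h 0 1 = b * g 0 1 := by
        apply mul_left_cancel₀ h2
        linear_combination e00 - g 0 1 * hb
      have k11 : h 1 1 = h 0 0 - b * g 0 0 + b * g 1 1 := by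
        apply mul_left_cancel₀ h2
        linear_combination e10 + (g 0 0 - g 1 1) * hb
      refine ⟨h 0 0 - b * g 0 0, b, ?_⟩
      ext i j
      fin_cases i <;> fin_cases j
      · simp
      · simp [k01]
      · simp [hb]
      · simp [k11]
  · obtain ⟨b, hb⟩ : ∃ b : F, b * g 0 1 = h 0 1 := ⟨h 0 1 / g 0 1, div_mul_cancel₀ _ h1⟩
    have k10 : h 1 0 = b * g 1 0 := by
      apply mul_left_cancel₀ h1
      linear_combination (-1 : F) * e00 - g 1 0 * hb
    have k11 : h 1 1 = h 0 0 - b * g 0 0 + b * g 1 1 := by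
      apply mul_left_cancel₀ h1
      linear_combination (-1 : F) * e01 + (g 0 0 - g 1 1) * hb
    refine ⟨h 0 0 - b * g 0 0, b, ?_⟩
    ext i j
    fin_cases i <;> fin_cases j
    · simp
    · simp [hb]
    · simp [k10]
    · simp [k11]

/-- Two matrices commuting with a non-scalar `2×2` matrix commute with each other. -/
theorem mat2_comm_of_comm (g h₁ h₂ : Matrix (Fin 2) (Fin 2) F)
    (hg : g 0 1 ≠ 0 ∨ g 1 0 ≠ 0 ∨ g 0 0 ≠ g 1 1) (hc₁ : h₁ * g = g * h₁)
    (hc₂ : h₂ * g = g * h₂) : h₁ * h₂ = h₂ * h₁ := by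
  obtain ⟨a₁, b₁, rfl⟩ := mat2_comm_form g h₁ hg hc₁
  obtain ⟨a₂, b₂, rfl⟩ := mat2_comm_form g h₂ hg hc₂
  have c : Commute (a₁ • (1 : Matrix (Fin 2) (Fin 2) F) + b₁ • g)
      (a₂ • (1 : Matrix (Fin 2) (Fin 2) F) + b₂ • g) := by
    apply Commute.add_left <;> apply Commute.add_right
    · exact ((Commute.one_left _).smul_left _).smul_right _
    · exact ((Commute.one_left _).smul_left _).smul_right _
    · exact ((Commute.one_right _).smul_left _).smul_right _
    · exact ((Commute.refl g).smul_left _).smul_right _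
  exact c.eq

/-- Cayley–Hamilton for `2×2` matrices. -/
theorem mat2_cayley (g : Matrix (Fin 2) (Fin 2) F) :
    g * g = g.trace • g - g.det • (1 : Matrix (Fin 2) (Fin 2) F) := by
  ext i j
  fin_cases i <;> fin_cases j <;>
    simp [Matrix.mul_apply, Fin.sum_univ_two, Matrix.trace_fin_two, Matrix.det_fin_two] <;> ring

/-- A `2×2` matrix of determinant `1` with `tr² ≠ 4` is not scalar. -/
theorem mat2_nonscalar_of_trace (g : Matrix (Fin 2) (Fin 2) F) (hd : g.det = 1)
    (ht : g.trace ^ 2 ≠ 4) : g 0 1 ≠ 0 ∨ g 1 0 ≠ 0 ∨ g 0 0 ≠ g 1 1 := by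
  by_contra hcon
  push Not at hcon
  obtain ⟨h1, h2, h3⟩ := hcon
  apply ht
  rw [Matrix.trace_fin_two]
  rw [Matrix.det_fin_two, h1, h2, h3] at hd
  rw [h3]
  linear_combination 4 * hd

/-- If `g' ∈ F[g]` has the same trace and determinant as the regular semisimple `g ∈ SL₂`, then
`g' = g` or `g' = g⁻¹`. -/
theorem mat2_eq_or_inv (h2 : (2 : F) ≠ 0) (g g' : Matrix (Fin 2) (Fin 2) F) (hd : g.det = 1)
    (hd' : g'.det = 1) (htr : g'.trace = g.trace) (ht : g.trace ^ 2 ≠ 4)
    (hc : g' * g = g * g') : g' = g ∨ g' * g = 1 := by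
  obtain ⟨a, b, rfl⟩ := mat2_comm_form g g' (mat2_nonscalar_of_trace g hd ht) hc
  have E1 : 2 * a + b * g.trace - g.trace = 0 := by
    have h := htr
    simp only [Matrix.trace_fin_two, Matrix.add_apply, Matrix.smul_apply, Matrix.one_apply_eq,
      smul_eq_mul] at h ⊢
    linear_combination h
  have E2 : a ^ 2 + a * b * g.trace + b ^ 2 - 1 = 0 := by
    have : (a • (1 : Matrix (Fin 2) (Fin 2) F) + b • g).det =
        a ^ 2 + a * b * g.trace + b ^ 2 * g.det := by
      simp only [Matrix.det_fin_two, Matrix.trace_fin_two, Matrix.add_apply, Matrix.smul_apply,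
        Matrix.one_apply_eq, smul_eq_mul, ne_eq, zero_ne_one, one_ne_zero, not_false_eq_true,
        Matrix.one_apply_ne, mul_zero, zero_add]
      ring
    rw [hd', hd] at this
    linear_combination (-1 : F) * this
  have E3 : (1 - b) * (1 + b) * (g.trace ^ 2 - 4) = 0 := by
    linear_combination 4 * E2 - (g.trace + 2 * a + b * g.trace) * E1
  rcases mul_eq_zero.mp E3 with E4 | E4
  · rcases mul_eq_zero.mp E4 with E5 | E5
    · left
      have hb : b = 1 := by linear_combination (-1 : F) * E5
      have ha : a = 0 := by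
        apply mul_left_cancel₀ h2
        rw [hb] at E1
        linear_combination E1
      rw [ha, hb]
      simp
    · right
      have hb : b = -1 := by linear_combination E5
      have ha : a = g.trace := by
        apply mul_left_cancel₀ h2
        rw [hb] at E1
        linear_combination E1
      rw [ha, hb, add_mul, smul_mul_assoc, smul_mul_assoc, one_mul, mat2_cayley g, hd]
      simp
  · exact absurd (sub_eq_zero.mp E4) ht

end mat

section tracefacts

variable {F : Type v} [Field F] (p : ℕ) [Fact p.Prime] [CharP F p]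

/-- In characteristic `p`, an element of `SL₂` of trace `2` has `p`-th power `1`. -/
theorem mat2_pow_char_of_trace_two (g : Matrix (Fin 2) (Fin 2) F) (hd : g.det = 1)
    (ht : g.trace = 2) : g ^ p = 1 := by
  have h1 : (g - 1) * (g - 1) = 0 := by
    have := mat2_cayley g
    rw [hd, ht] at this
    rw [sub_mul, mul_sub, mul_sub, this]
    simp only [mul_one, one_mul, one_smul, two_smul]
    abel
  have h2 : (g - 1) ^ p = 0 := by
    have hp2 : 2 ≤ p := (Fact.out : p.Prime).two_le
    apply pow_eq_zero_of_le hp2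
    rw [pow_two]
    exact h1
  rw [sub_pow_char_of_commute p (Commute.one_right g), one_pow, sub_eq_zero] at h2
  exact h2

/-- In characteristic `p`, an element of `SL₂` of trace `-2` has `p`-th power `-1`. -/
theorem mat2_pow_char_of_trace_neg_two (g : Matrix (Fin 2) (Fin 2) F) (hd : g.det = 1)
    (ht : g.trace = -2) : g ^ p = -1 := by
  have h1 : (g + 1) * (g + 1) = 0 := by
    have := mat2_cayley g
    rw [hd, ht] at this
    rw [add_mul, mul_add, mul_add, this]
    simp only [mul_one, one_mul, one_smul, neg_smul, two_smul]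
    abel
  have h2 : (g + 1) ^ p = 0 := by
    have hp2 : 2 ≤ p := (Fact.out : p.Prime).two_le
    apply pow_eq_zero_of_le hp2
    rw [pow_two]
    exact h1
  rw [add_pow_char_of_commute p (Commute.one_right g), one_pow] at h2
  exact eq_neg_of_add_eq_zero_left h2

/-- A unipotent element `g` of `SL₂` (trace `2`) satisfies `(g - 1)² = 0`. -/
theorem mat2_sub_one_sq_of_trace_two {F : Type v} [Field F] (g : Matrix (Fin 2) (Fin 2) F)
    (hd : g.det = 1) (ht : g.trace = 2) : (g - 1) * (g - 1) = 0 := by
  have := mat2_cayley g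
  rw [hd, ht] at this
  rw [sub_mul, mul_sub, mul_sub, this]
  simp only [mul_one, one_mul, one_smul, two_smul]
  abel

/-- In characteristic `p`, a `2×2` matrix of `p`-power order has trace `2`. -/
theorem mat2_trace_of_pow_char_pow (g : Matrix (Fin 2) (Fin 2) F) (k : ℕ)
    (h : g ^ p ^ k = 1) : g.trace = 2 := by
  have h1 : (g - 1) ^ p ^ k = 0 := by
    rw [sub_pow_char_pow_of_commute p k (Commute.one_right g), h, one_pow, sub_self]
  have h2 : IsNilpotent (g - 1) := ⟨_, h1⟩
  have h3 := (Matrix.isNilpotent_trace_of_isNilpotent h2).eq_zero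
  rw [Matrix.trace_sub, Matrix.trace_one] at h3
  simp only [Fintype.card_fin, Nat.cast_ofNat] at h3
  linear_combination h3

/-- A singular `2×2` matrix has rank at most one: all its values are proportional. -/
theorem mat2_mulVec_mem_span {F : Type v} [Field F] (N : Matrix (Fin 2) (Fin 2) F)
    (hN : N.det = 0) (e u : Fin 2 → F) (hv : N *ᵥ e ≠ 0) :
    N *ᵥ u ∈ Submodule.span F {N *ᵥ e} := by
  have key : (N *ᵥ u) 0 * (N *ᵥ e) 1 - (N *ᵥ u) 1 * (N *ᵥ e) 0 = 0 := by
    rw [Matrix.det_fin_two] at hN
    simp only [Matrix.mulVec, dotProduct, Fin.sum_univ_two]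
    linear_combination (u 0 * e 1 - u 1 * e 0) * hN
  rw [Submodule.mem_span_singleton]
  by_cases h0 : (N *ᵥ e) 0 = 0
  · have h1 : (N *ᵥ e) 1 ≠ 0 := by
      intro h1
      apply hv
      funext i
      fin_cases i
      · exact h0
      · exact h1
    refine ⟨(N *ᵥ u) 1 / (N *ᵥ e) 1, ?_⟩
    funext i
    fin_cases i
    · show (N *ᵥ u) 1 / (N *ᵥ e) 1 * (N *ᵥ e) 0 = (N *ᵥ u) 0
      rw [h0, mul_zero]
      rw [h0, mul_zero, sub_zero] at key
      exact ((mul_eq_zero.mp key).resolve_right h1).symm
    · show (N *ᵥ u) 1 / (N *ᵥ e) 1 * (N *ᵥ e) 1 = (N *ᵥ u) 1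
      exact div_mul_cancel₀ _ h1
  · refine ⟨(N *ᵥ u) 0 / (N *ᵥ e) 0, ?_⟩
    funext i
    fin_cases i
    · show (N *ᵥ u) 0 / (N *ᵥ e) 0 * (N *ᵥ e) 0 = (N *ᵥ u) 0
      exact div_mul_cancel₀ _ h0
    · show (N *ᵥ u) 0 / (N *ᵥ e) 0 * (N *ᵥ e) 1 = (N *ᵥ u) 1
      rw [div_mul_eq_mul_div, div_eq_iff h0]
      linear_combination key

theorem two_ne_zero_of_charP (hp : p ≠ 2) : (2 : F) ≠ 0 := by
  intro h
  have h1 : ((2 : ℕ) : F) = 0 := by exact_mod_cast h
  rw [CharP.cast_eq_zero_iff F p] at h1
  exact hp ((Nat.prime_dvd_prime_iff_eq Fact.out Nat.prime_two).mp h1)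

end tracefacts

section grp

variable {F : Type v} [Field F] {p : ℕ} [Fact p.Prime] [CharP F p]
variable {G : Type u} [Group G] [Finite G]

theorem eq_one_of_mul_self_of_odd (hodd : Odd (Nat.card G)) {g : G} (h : g * g = 1) : g = 1 := by
  have h1 : orderOf g ∣ 2 := orderOf_dvd_of_pow_eq_one (by rw [pow_two]; exact h)
  have h2 : orderOf g ∣ Nat.card G := orderOf_dvd_natCard g
  have h3 : Nat.Coprime 2 (Nat.card G) := Nat.coprime_two_left.mpr hodd
  exact orderOf_eq_one_iff.mp (Nat.eq_one_of_dvd_coprimes h3 h1 h2)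

theorem commute_of_sq_commute_of_odd (hodd : Odd (Nat.card G)) {g h : G}
    (hc : Commute (h ^ 2) g) : Commute h g := by
  have h1 : Odd (orderOf h) := Odd.of_dvd_nat hodd (orderOf_dvd_natCard h)
  obtain ⟨k, hk⟩ := h1
  have h2 : (h ^ 2) ^ (k + 1) = h := by
    rw [← pow_mul]
    have : 2 * (k + 1) = orderOf h + 1 := by omega
    rw [this, pow_succ, pow_orderOf_eq_one, one_mul]
  have := hc.pow_left (k + 1)
  rwa [h2] at this

variable (φ : G →* Matrix (Fin 2) (Fin 2) F)

/-- Non-identity elements of an odd-order subgroup of `SL₂(F)` are not scalar. -/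
theorem sl2_nonscalar (hodd : Odd (Nat.card G)) (hinj : Function.Injective φ)
    (hdet : ∀ g, (φ g).det = 1) {g : G} (hg : g ≠ 1) :
    (φ g) 0 1 ≠ 0 ∨ (φ g) 1 0 ≠ 0 ∨ (φ g) 0 0 ≠ (φ g) 1 1 := by
  by_contra hcon
  push Not at hcon
  obtain ⟨h1, h2, h3⟩ := hcon
  apply hg
  apply eq_one_of_mul_self_of_odd hodd
  apply hinj
  rw [map_mul, map_one]
  have hd := hdet g
  rw [Matrix.det_fin_two, h1, h2, h3] at hd
  ext i j
  fin_cases i <;> fin_cases j <;>
    simp [Matrix.mul_apply, Fin.sum_univ_two, h1, h2, h3] <;> linear_combination hd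

/-- A non-identity `p'`-element of an odd-order subgroup of `SL₂(F)` is regular semisimple. -/
theorem sl2_trace_sq_ne_four (hp : p ≠ 2) (hodd : Odd (Nat.card G))
    (hinj : Function.Injective φ) (hdet : ∀ g, (φ g).det = 1) {g : G} (hg : g ≠ 1)
    (hcop : (orderOf g).Coprime p) : (φ g).trace ^ 2 ≠ 4 := by
  intro h
  have h2F : (2 : F) ≠ 0 := two_ne_zero_of_charP p hp
  have h1 : ((φ g).trace - 2) * ((φ g).trace + 2) = 0 := by linear_combination h
  rcases mul_eq_zero.mp h1 with h3 | h3
  · have h4 := mat2_pow_char_of_trace_two p (φ g) (hdet g) (sub_eq_zero.mp h3)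
    rw [← map_pow, ← map_one φ] at h4
    have h5 : orderOf g ∣ p := orderOf_dvd_of_pow_eq_one (hinj h4)
    exact hg (orderOf_eq_one_iff.mp (Nat.Coprime.eq_one_of_dvd hcop h5))
  · have h4 := mat2_pow_char_of_trace_neg_two p (φ g) (hdet g) (eq_neg_of_add_eq_zero_left h3)
    rw [← map_pow] at h4
    have h5 : g ^ p * g ^ p = 1 := by
      apply hinj
      rw [map_mul, h4, map_one]
      simp
    have h6 : g ^ p = 1 := eq_one_of_mul_self_of_odd hodd h5
    rw [h6, map_one] at h4
    have h7 := congrFun (congrFun h4 0) 0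
    simp only [Matrix.one_apply_eq, Matrix.neg_apply] at h7
    apply h2F
    linear_combination h7

/-- If a conjugate `h g h⁻¹` of a non-identity `p'`-element `g` commutes with `g`, then `h`
commutes with `g` (odd-order subgroups of `SL₂(F)`). -/
theorem sl2_commute_of_conj_commute (hp : p ≠ 2) (hodd : Odd (Nat.card G))
    (hinj : Function.Injective φ) (hdet : ∀ g, (φ g).det = 1) {g h : G} (hg : g ≠ 1)
    (hcop : (orderOf g).Coprime p) (hc : (h * g * h⁻¹) * g = g * (h * g * h⁻¹)) :
    h * g = g * h := by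
  have h2F : (2 : F) ≠ 0 := two_ne_zero_of_charP p hp
  have htr : (φ (h * g * h⁻¹)).trace = (φ g).trace := by
    rw [map_mul, Matrix.trace_mul_comm, ← map_mul]
    congr 2
    group
  have hc' : φ (h * g * h⁻¹) * φ g = φ g * φ (h * g * h⁻¹) := by
    rw [← map_mul, ← map_mul, hc]
  rcases mat2_eq_or_inv h2F (φ g) (φ (h * g * h⁻¹)) (hdet g) (hdet _) htr
    (sl2_trace_sq_ne_four φ hp hodd hinj hdet hg hcop) hc' with h1 | h1
  · have h3 : h * g * h⁻¹ = g := hinj h1
    calc h * g = (h * g * h⁻¹) * h := by group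
      _ = g * h := by rw [h3]
  · rw [← map_mul, ← map_one φ] at h1
    have h3 : h * g * h⁻¹ * g = 1 := hinj h1
    have h4 : h * g = g⁻¹ * h := by
      have : h * g * h⁻¹ = g⁻¹ := eq_inv_of_mul_eq_one_left h3
      calc h * g = (h * g * h⁻¹) * h := by group
        _ = g⁻¹ * h := by rw [this]
    have h5 : h * g⁻¹ = g * h := by
      have : h * g⁻¹ * h⁻¹ = g := by
        have e : h * g⁻¹ * h⁻¹ = (h * g * h⁻¹)⁻¹ := by group
        rw [e, eq_inv_of_mul_eq_one_left h3, inv_inv]
      calc h * g⁻¹ = (h * g⁻¹ * h⁻¹) * h := by group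
        _ = g * h := by rw [this]
    have h6 : Commute (h ^ 2) g := by
      show h ^ 2 * g = g * h ^ 2
      rw [pow_two, mul_assoc, h4, ← mul_assoc, h5, mul_assoc]
    exact (commute_of_sq_commute_of_odd hodd h6).eq

end grp

/-- **Odd-order subgroups of `SL₂(F)` are `p`-closed** (`char F = p` odd): a finite group of odd
order with a faithful `2`-dimensional representation of determinant `1` in characteristic `p`
has a normal Sylow `p`-subgroup. -/
theorem sl2_odd_sylow_normal {F : Type v} [Field F] (p : ℕ) [Fact p.Prime] [CharP F p]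
    (hp : p ≠ 2) :
    ∀ (n : ℕ) (G : Type u) [Group G] [Finite G], Nat.card G ≤ n → Odd (Nat.card G) →
      ∀ φ : G →* Matrix (Fin 2) (Fin 2) F, Function.Injective φ → (∀ g, (φ g).det = 1) →
      ∃ P : Sylow p G, (P : Subgroup G).Normal := by
  intro n
  induction n with
  | zero =>
    intro G _ _ hn
    exact absurd hn (by have := Nat.card_pos (α := G); omega)
  | succ n ih =>
    intro G _ _ hn hodd φ hinj hdet
    by_cases hpg : IsPGroup p G
    · obtain ⟨P⟩ : Nonempty (Sylow p G) := inferInstance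
      have htop : (P : Subgroup G) = ⊤ := by
        have h1 : IsPGroup p (⊤ : Subgroup G) := hpg.to_subgroup ⊤
        exact (P.is_maximal' h1 le_top).symm
      refine ⟨P, ?_⟩
      rw [htop]
      infer_instance
    · have hex : ∃ r : ℕ, r.Prime ∧ r ∣ Nat.card G ∧ r ≠ p := by
        by_contra hcon
        push Not at hcon
        apply hpg
        rw [IsPGroup.iff_card]
        exact ⟨_, Nat.eq_prime_pow_of_unique_prime_dvd Nat.card_pos.ne'
          (fun {d} hd hdvd => hcon d hd hdvd)⟩
      obtain ⟨r, hr, hrdvd, hrp⟩ := hex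
      haveI : Fact r.Prime := ⟨hr⟩
      obtain ⟨R⟩ : Nonempty (Sylow r G) := inferInstance
      have hRne : (R : Subgroup G) ≠ ⊥ := R.ne_bot_of_dvd_card hrdvd
      have hRcop : ∀ g ∈ (R : Subgroup G), (orderOf g).Coprime p := by
        intro g hg
        obtain ⟨k, hk⟩ := R.isPGroup' ⟨g, hg⟩
        have h1 : orderOf g ∣ r ^ k := by
          apply orderOf_dvd_of_pow_eq_one
          have := congrArg Subtype.val hk
          simpa using this
        have h2 : (r ^ k).Coprime p :=
          Nat.Coprime.pow_left k ((Nat.coprime_primes hr Fact.out).mpr hrp)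
        exact Nat.Coprime.coprime_dvd_left h1 h2
      have hRab : ∀ a ∈ (R : Subgroup G), ∀ b ∈ (R : Subgroup G), a * b = b * a := by
        haveI : Nontrivial ↥(R : Subgroup G) := (Subgroup.nontrivial_iff_ne_bot _).mpr hRne
        obtain ⟨z, hzc, hz1⟩ := SetLike.exists_of_lt (IsPGroup.bot_lt_center R.isPGroup')
        have hz1' : (z : G) ≠ 1 := by
          intro h
          apply hz1
          rw [Subgroup.mem_bot]
          exact Subtype.ext h
        intro a ha b hb
        apply hinj
        rw [map_mul, map_mul]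
        apply mat2_comm_of_comm (φ (z : G)) _ _ (sl2_nonscalar φ hodd hinj hdet hz1')
        · rw [← map_mul, ← map_mul]
          congr 1
          have := Subgroup.mem_center_iff.mp hzc ⟨a, ha⟩
          exact congrArg Subtype.val this
        · rw [← map_mul, ← map_mul]
          congr 1
          have := Subgroup.mem_center_iff.mp hzc ⟨b, hb⟩
          exact congrArg Subtype.val this
      have hNC : Subgroup.normalizer ((R : Subgroup G) : Set G) ≤
          Subgroup.centralizer ((R : Subgroup G) : Set G) := by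
        intro h hh
        rw [Subgroup.mem_centralizer_iff]
        intro g hg
        by_cases hg1 : g = 1
        · rw [hg1]
          simp
        · have hconj : h * g * h⁻¹ ∈ (R : Subgroup G) :=
            (Subgroup.mem_normalizer_iff.mp hh g).mp hg
          exact (sl2_commute_of_conj_commute φ hp hodd hinj hdet hg1 (hRcop g hg)
            (hRab _ hconj _ hg)).symm
      obtain ⟨M, hMn, hcompl⟩ : ∃ M : Subgroup G, M.Normal ∧
          Subgroup.IsComplement' M (R : Subgroup G) :=
        ⟨_, inferInstance, MonoidHom.ker_transferSylow_isComplement' R hNC⟩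
      have hcard : Nat.card M * Nat.card (R : Subgroup G) = Nat.card G := hcompl.card_mul
      have hR1 : 1 < Nat.card (R : Subgroup G) := (Subgroup.one_lt_card_iff_ne_bot _).mpr hRne
      have hMpos : 0 < Nat.card M := Nat.card_pos
      have hMlt : Nat.card M ≤ n := by nlinarith
      have hModd : Odd (Nat.card M) := Odd.of_dvd_nat hodd (Dvd.intro _ hcard)
      obtain ⟨P₁, hP₁⟩ := ih ↥M hMlt hModd (φ.comp M.subtype)
        (hinj.comp Subtype.val_injective) (fun g => hdet _)
      have hchar : (P₁ : Subgroup M).Characteristic := P₁.characteristic_of_normal hP₁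
      have hNn : ((P₁ : Subgroup M).map M.subtype).Normal :=
        ConjAct.normal_of_characteristic_of_normal
      have hNp : IsPGroup p ((P₁ : Subgroup M).map M.subtype) := P₁.isPGroup'.map M.subtype
      have hidx : ¬ p ∣ ((P₁ : Subgroup M).map M.subtype).index := by
        rw [Subgroup.index_map_subtype]
        intro hdvd
        rcases (Nat.Prime.dvd_mul Fact.out).mp hdvd with h | h
        · exact P₁.not_dvd_index h
        · rw [hcompl.symm.index_eq_card] at h
          obtain ⟨k, hk⟩ := IsPGroup.iff_card.mp R.isPGroup'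
          rw [hk] at h
          have h2 := (Nat.Prime.dvd_of_dvd_pow Fact.out h)
          exact hrp ((Nat.prime_dvd_prime_iff_eq Fact.out hr).mp h2).symm
      refine ⟨hNp.toSylow hidx, ?_⟩
      rw [IsPGroup.toSylow_coe]
      exact hNn

end Cfsg.Agent.H2
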