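import Mathlib
import Cfsg.Agent.H2.OddSL2

/-!
# More `2×2` matrix lemmas (square-zero matrices, elements of order four in `SL₂`)
-/

set_option autoImplicit false

namespace Cfsg.Agent.H2

open Matrix

universe u v

section mat2more

variable {F : Type v} [Field F]

/-- A square-zero `2×2` matrix has trace and determinant zero. -/
theorem mat2_trace_det_of_sq_zero (N : Matrix (Fin 2) (Fin 2) F) (hN : N * N = 0) :
    N.trace = 0 ∧ N.det = 0 := by
  have h1 : IsNilpotent N := ⟨2, by rw [pow_two]; exact hN⟩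
  refine ⟨(Matrix.isNilpotent_trace_of_isNilpotent h1).eq_zero, ?_⟩
  have h2 : N.det * N.det = 0 := by rw [← Matrix.det_mul, hN, Matrix.det_zero]
  exact mul_self_eq_zero.mp h2

/-- Entry form of a square-zero `2×2` matrix. -/
theorem mat2_entries_of_sq_zero (N : Matrix (Fin 2) (Fin 2) F) (hN : N * N = 0) :
    N 1 1 = -N 0 0 ∧ N 0 0 * N 0 0 + N 0 1 * N 1 0 = 0 := by
  obtain ⟨ht, hd⟩ := mat2_trace_det_of_sq_zero N hN
  rw [Matrix.trace_fin_two] at ht
  rw [Matrix.det_fin_two] at hd
  have h1 : N 1 1 = -N 0 0 := by linear_combination ht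
  refine ⟨h1, ?_⟩
  rw [h1] at hd
  linear_combination -hd

/-- Two square-zero `2×2` matrices whose product has trace zero are proportional. -/
theorem mat2_smul_of_trace_mul_zero (M N : Matrix (Fin 2) (Fin 2) F) (hM : M * M = 0)
    (hN : N * N = 0) (hN0 : N ≠ 0) (ht : (M * N).trace = 0) : ∃ c : F, M = c • N := by
  obtain ⟨hm4, hm⟩ := mat2_entries_of_sq_zero M hM
  obtain ⟨hn4, hn⟩ := mat2_entries_of_sq_zero N hN
  rw [Matrix.trace_fin_two, Matrix.mul_apply, Matrix.mul_apply, Fin.sum_univ_two, Fin.sum_univ_two,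
    hm4, hn4] at ht
  have e1 : M 0 0 * N 0 1 = M 0 1 * N 0 0 := by
    have : (M 0 0 * N 0 1 - M 0 1 * N 0 0) ^ 2 = 0 := by
      linear_combination (N 0 1) ^ 2 * hm + (M 0 1) ^ 2 * hn - M 0 1 * N 0 1 * ht
    exact sub_eq_zero.mp ((pow_eq_zero_iff (two_ne_zero)).mp this)
  have e2 : M 0 0 * N 1 0 = M 1 0 * N 0 0 := by
    have : (M 0 0 * N 1 0 - M 1 0 * N 0 0) ^ 2 = 0 := by
      linear_combination (N 1 0) ^ 2 * hm + (M 1 0) ^ 2 * hn - M 1 0 * N 1 0 * ht
    exact sub_eq_zero.mp ((pow_eq_zero_iff (two_ne_zero)).mp this)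
  have e3 : M 0 1 * N 1 0 = M 1 0 * N 0 1 := by
    have : (M 0 1 * N 1 0 - M 1 0 * N 0 1) ^ 2 = 0 := by
      linear_combination (M 0 1 * N 1 0 + M 1 0 * N 0 1 - 2 * M 0 0 * N 0 0) * ht
        + 4 * N 0 0 * N 0 0 * hm - 4 * M 0 1 * M 1 0 * hn
    exact sub_eq_zero.mp ((pow_eq_zero_iff (two_ne_zero)).mp this)
  by_cases h01 : N 0 1 = 0
  · by_cases h10 : N 1 0 = 0
    · exfalso
      apply hN0
      have h00 : N 0 0 = 0 := by
        rw [h01, zero_mul, add_zero] at hn
        exact mul_self_eq_zero.mp hn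
      ext i j
      fin_cases i <;> fin_cases j
      · exact h00
      · exact h01
      · exact h10
      · show N 1 1 = 0
        rw [hn4, h00, neg_zero]
    · refine ⟨M 1 0 / N 1 0, ?_⟩
      ext i j
      fin_cases i <;> fin_cases j
      · show M 0 0 = M 1 0 / N 1 0 * N 0 0
        field_simp
        linear_combination e2
      · show M 0 1 = M 1 0 / N 1 0 * N 0 1
        field_simp
        linear_combination e3
      · show M 1 0 = M 1 0 / N 1 0 * N 1 0
        field_simp
      · show M 1 1 = M 1 0 / N 1 0 * N 1 1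
        rw [hm4, hn4]
        field_simp
        linear_combination -e2
  · refine ⟨M 0 1 / N 0 1, ?_⟩
    ext i j
    fin_cases i <;> fin_cases j
    · show M 0 0 = M 0 1 / N 0 1 * N 0 0
      field_simp
      linear_combination e1
    · show M 0 1 = M 0 1 / N 0 1 * N 0 1
      field_simp
    · show M 1 0 = M 0 1 / N 0 1 * N 1 0
      field_simp
      linear_combination -e3
    · show M 1 1 = M 0 1 / N 0 1 * N 1 1
      rw [hm4, hn4]
      field_simp
      linear_combination -e1

/-- For a square-zero `2×2` matrix `N`, `N x N = tr(x N) N`. -/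
theorem mat2_sandwich (N x : Matrix (Fin 2) (Fin 2) F) (hN : N * N = 0) :
    N * x * N = (x * N).trace • N := by
  obtain ⟨hn4, hn⟩ := mat2_entries_of_sq_zero N hN
  ext i j
  fin_cases i <;> fin_cases j
  · simp only [Fin.zero_eta, Fin.isValue, Fin.mk_one, Matrix.mul_apply, Fin.sum_univ_two,
      Matrix.smul_apply, Matrix.trace_fin_two, smul_eq_mul, hn4]
    linear_combination (x 1 1) * hn
  · simp only [Fin.zero_eta, Fin.isValue, Fin.mk_one, Matrix.mul_apply, Fin.sum_univ_two,
      Matrix.smul_apply, Matrix.trace_fin_two, smul_eq_mul, hn4]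
    linear_combination (-x 0 1) * hn
  · simp only [Fin.zero_eta, Fin.isValue, Fin.mk_one, Matrix.mul_apply, Fin.sum_univ_two,
      Matrix.smul_apply, Matrix.trace_fin_two, smul_eq_mul, hn4]
    linear_combination (-x 1 0) * hn
  · simp only [Fin.zero_eta, Fin.isValue, Fin.mk_one, Matrix.mul_apply, Fin.sum_univ_two,
      Matrix.smul_apply, Matrix.trace_fin_two, smul_eq_mul, hn4]
    linear_combination (x 0 0) * hn

/-- An involution of `SL₂(F)` (`char F ≠ 2`) is `±1`. -/
theorem mat2_involution (h2 : (2 : F) ≠ 0) (g : Matrix (Fin 2) (Fin 2) F) (hd : g.det = 1)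
    (hg : g * g = 1) : g = 1 ∨ g = -1 := by
  have hc := mat2_cayley g
  rw [hd, hg, one_smul] at hc
  -- `tr(g) g = 2`
  have h1 : g.trace • g = (2 : F) • (1 : Matrix (Fin 2) (Fin 2) F) := by
    rw [two_smul]
    exact (sub_eq_iff_eq_add.mp hc.symm)
  have ht0 : g.trace ≠ 0 := by
    intro h0
    rw [h0, zero_smul] at h1
    have := congrFun (congrFun h1 0) 0
    simp only [Matrix.zero_apply, Matrix.smul_apply, Matrix.one_apply_eq, smul_eq_mul,
      mul_one] at this
    exact h2 this.symm
  have h3 : g = (2 / g.trace) • (1 : Matrix (Fin 2) (Fin 2) F) := by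
    have := congrArg (fun m => (g.trace)⁻¹ • m) h1
    simp only [smul_smul, inv_mul_cancel₀ ht0, one_smul] at this
    rw [div_eq_inv_mul]
    exact this
  set c := 2 / g.trace with hcdef
  have h4 : c * c = 1 := by
    rw [h3] at hg
    have := congrFun (congrFun hg 0) 0
    simpa [Matrix.mul_apply, Fin.sum_univ_two] using this
  have h5 : (c - 1) * (c + 1) = 0 := by linear_combination h4
  rcases mul_eq_zero.mp h5 with h | h
  · left
    rw [h3, sub_eq_zero.mp h, one_smul]
  · right
    rw [h3, eq_neg_of_add_eq_zero_left h]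
    simp

/-- A scalar matrix of determinant one is `±1`. -/
theorem mat2_scalar_eq (g : Matrix (Fin 2) (Fin 2) F) (hd : g.det = 1)
    (hs : ¬ (g 0 1 ≠ 0 ∨ g 1 0 ≠ 0 ∨ g 0 0 ≠ g 1 1)) : g = 1 ∨ g = -1 := by
  push Not at hs
  obtain ⟨h1, h2, h3⟩ := hs
  rw [Matrix.det_fin_two, h1, h2, ← h3] at hd
  have h5 : (g 0 0 - 1) * (g 0 0 + 1) = 0 := by linear_combination hd
  rcases mul_eq_zero.mp h5 with h | h
  · left
    ext i j
    fin_cases i <;> fin_cases j
    · simpa using sub_eq_zero.mp h
    · simpa using h1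
    · simpa using h2
    · simp only [Fin.mk_one, Fin.isValue, Matrix.one_apply_eq]
      rw [← h3]; exact sub_eq_zero.mp h
  · right
    ext i j
    fin_cases i <;> fin_cases j
    · simpa using eq_neg_of_add_eq_zero_left h
    · simpa using h1
    · simpa using h2
    · simp only [Fin.mk_one, Fin.isValue, Matrix.neg_apply, Matrix.one_apply_eq]
      rw [← h3]; exact eq_neg_of_add_eq_zero_left h

/-- The square of a scalar matrix is scalar. -/
theorem mat2_scalar_sq (g : Matrix (Fin 2) (Fin 2) F)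
    (hs : ¬ (g 0 1 ≠ 0 ∨ g 1 0 ≠ 0 ∨ g 0 0 ≠ g 1 1)) :
    ¬ ((g * g) 0 1 ≠ 0 ∨ (g * g) 1 0 ≠ 0 ∨ (g * g) 0 0 ≠ (g * g) 1 1) := by
  push Not at hs ⊢
  obtain ⟨h1, h2, h3⟩ := hs
  simp only [Matrix.mul_apply, Fin.sum_univ_two, h1, h2, h3]
  refine ⟨by ring, by ring, by ring⟩

end mat2more

section ring4

variable {A : Type v} [Ring A]

/-- Elements of order four whose product has order four anticommute. -/
theorem anticomm_of_sq (a b : A) (ha : a * a = -1) (hb : b * b = -1)
    (hab : (a * b) * (a * b) = -1) : a * b = -(b * a) := by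
  have h1 : b * a * b = a := by
    have : a * ((a * b) * (a * b)) = a * (-1) := by rw [hab]
    have e : a * ((a * b) * (a * b)) = (a * a) * (b * a * b) := by simp only [mul_assoc]
    rw [e, ha] at this
    simpa using this
  have h2 : b * (b * a * b) = b * a := by rw [h1]
  have e2 : b * (b * a * b) = (b * b) * (a * b) := by simp only [mul_assoc]
  rw [e2, hb] at h2
  have h3 : -(a * b) = b * a := by simpa using h2
  rw [← h3, neg_neg]

/-- Three pairwise anticommuting elements of order four have product of square one. -/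
theorem sq_of_three_anticomm (a b c : A) (ha : a * a = -1) (hb : b * b = -1) (hc : c * c = -1)
    (hab : a * b = -(b * a)) (hac : a * c = -(c * a)) (hbc : b * c = -(c * b)) :
    (a * b * c) * (a * b * c) = 1 := by
  have hca : c * a = -(a * c) := by rw [hac, neg_neg]
  have hcb : c * b = -(b * c) := by rw [hbc, neg_neg]
  have hba : b * a = -(a * b) := by rw [hab, neg_neg]
  calc (a * b * c) * (a * b * c) = a * b * (c * a) * b * c := by simp only [mul_assoc]
    _ = -(a * b * a * (c * b) * c) := by rw [hca]; simp only [mul_neg, neg_mul, mul_assoc]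
    _ = a * b * a * b * (c * c) := by rw [hcb]; simp only [mul_neg, neg_mul, mul_assoc, neg_neg]
    _ = -(a * (b * a) * b) := by rw [hc]; simp only [mul_neg, mul_one, mul_assoc]
    _ = (a * a) * (b * b) := by rw [hba]; simp only [mul_neg, neg_mul, mul_assoc, neg_neg]
    _ = 1 := by rw [ha, hb]; simp

end ring4

end Cfsg.Agent.H2
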