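import Mathlib
import Cfsg.Prelude.Def_LocalStructure
import Cfsg.Agent.H2.OddSL2
import Cfsg.Agent.H2.Mat2More
import Cfsg.Agent.H68.MinPClosed
import Cfsg.Agent.H73.PSolv
import Cfsg.Agent.H3.PGroup

/-!
# `p`-solvable subgroups of `SL₂(F)`, `char F = p` odd

A finite `p`-solvable group with a faithful `2`-dimensional representation of determinant `1`
in odd characteristic `p` is `p`-closed, unless `p = 3` and it contains a quaternion group of
order `8` acted on nontrivially by an element of order `3` (the `SL₂(3)` configuration).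
-/

set_option autoImplicit false

namespace Cfsg.Agent.H2

open Matrix

universe u v

section psolv

variable {F : Type v} [Field F] {p : ℕ} [Fact p.Prime] [CharP F p]
variable {X : Type u} [Group X] [Finite X]
variable (φ : X →* Matrix (Fin 2) (Fin 2) F)

omit [Finite X] in
theorem trace_of_pelement {g : X} (hg : ∃ k : ℕ, g ^ p ^ k = 1) : (φ g).trace = 2 := by
  obtain ⟨k, hk⟩ := hg
  exact mat2_trace_of_pow_char_pow (p := p) (φ g) k (by rw [← map_pow, hk, map_one])

omit [Finite X] in
/-- If a finite subgroup of `SL₂(F)` has a nontrivial normal `p`-subgroup, it is `p`-closed. -/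
theorem isPClosed_of_normal_pgroup (hinj : Function.Injective φ) (hdet : ∀ g, (φ g).det = 1)
    (P₀ : Subgroup X) (hn : P₀.Normal) (hP₀ : IsPGroup p P₀) (hne : P₀ ≠ ⊥) :
    Cfsg.IsPClosed p X := by
  obtain ⟨⟨u₀, hu₀⟩, hu₀1⟩ := (Subgroup.ne_bot_iff_exists_ne_one.mp hne : ∃ a : P₀, a ≠ 1)
  have hu₀1' : (u₀ : X) ≠ 1 := fun h => hu₀1 (Subtype.ext h)
  have hpel : ∀ g : X, (∃ k : ℕ, g ^ p ^ k = 1) → (φ g).trace = 2 :=
    fun g hg => trace_of_pelement φ hg
  have hP₀el : ∀ g ∈ P₀, ∃ k : ℕ, g ^ p ^ k = 1 := by
    intro g hg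
    obtain ⟨k, hk⟩ := hP₀ ⟨g, hg⟩
    exact ⟨k, by simpa using congrArg Subtype.val hk⟩
  set N₀ := φ u₀ - 1 with hN₀
  have hN₀sq : N₀ * N₀ = 0 :=
    mat2_sub_one_sq_of_trace_two _ (hdet _) (hpel u₀ (hP₀el u₀ hu₀))
  have hN₀ne : N₀ ≠ 0 := by
    intro h
    apply hu₀1'
    apply hinj
    rw [map_one]
    exact sub_eq_zero.mp h
  have htrN : N₀.trace = 0 := (mat2_trace_det_of_sq_zero N₀ hN₀sq).1
  have hline : ∀ g : X, ∃ c : F, φ g * N₀ * φ g⁻¹ = c • N₀ := by
    intro g
    have hw : (u₀ : X) * (g * u₀ * g⁻¹) ∈ P₀ := P₀.mul_mem hu₀ (hn.conj_mem u₀ hu₀ g)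
    have htr := hpel _ (hP₀el _ hw)
    have hGG : φ g * φ g⁻¹ = 1 := by rw [← map_mul, mul_inv_cancel, map_one]
    have hGG' : φ g⁻¹ * φ g = 1 := by rw [← map_mul, inv_mul_cancel, map_one]
    have e : φ ((u₀ : X) * (g * u₀ * g⁻¹)) = (1 + N₀) * (1 + φ g * N₀ * φ g⁻¹) := by
      rw [map_mul, map_mul, map_mul, hN₀, mul_sub, sub_mul, mul_one, hGG]
      congr 1 <;> abel
    have hM : (φ g * N₀ * φ g⁻¹) * (φ g * N₀ * φ g⁻¹) = 0 := by
      calc (φ g * N₀ * φ g⁻¹) * (φ g * N₀ * φ g⁻¹)
          = φ g * (N₀ * ((φ g⁻¹ * φ g) * N₀)) * φ g⁻¹ := by simp only [mul_assoc]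
        _ = 0 := by rw [hGG', one_mul, hN₀sq, mul_zero, zero_mul]
    have htrM : (φ g * N₀ * φ g⁻¹).trace = 0 := (mat2_trace_det_of_sq_zero _ hM).1
    have ht : ((φ g * N₀ * φ g⁻¹) * N₀).trace = 0 := by
      rw [e] at htr
      have e2 : (1 + N₀) * (1 + φ g * N₀ * φ g⁻¹)
          = 1 + N₀ + φ g * N₀ * φ g⁻¹ + N₀ * (φ g * N₀ * φ g⁻¹) := by
        rw [add_mul, one_mul, mul_add, mul_one]; abel
      rw [e2, Matrix.trace_add, Matrix.trace_add, Matrix.trace_add, htrN, htrM,
        Matrix.trace_one] at htr
      rw [Matrix.trace_mul_comm]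
      simp only [Fintype.card_fin, Nat.cast_ofNat, add_zero] at htr
      linear_combination htr
    exact mat2_smul_of_trace_mul_zero _ _ hM hN₀sq hN₀ne ht
  have hform : ∀ g : X, (∃ k : ℕ, g ^ p ^ k = 1) → ∃ c : F, φ g = 1 + c • N₀ := by
    intro g hg
    obtain ⟨c, hc⟩ := hline g
    set M := φ g - 1 with hMdef
    have hMsq : M * M = 0 := mat2_sub_one_sq_of_trace_two _ (hdet g) (hpel g hg)
    have hGG' : φ g⁻¹ * φ g = 1 := by rw [← map_mul, inv_mul_cancel, map_one]
    have h1 : φ g * N₀ = c • (N₀ * φ g) := by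
      have h := congrArg (fun m => m * φ g) hc
      simp only [mul_assoc, hGG', mul_one] at h
      rw [h, smul_mul_assoc]
    have h2 : N₀ * M * N₀ = 0 := by
      have h3 : N₀ * (φ g * N₀) = 0 := by
        rw [h1, mul_smul_comm, ← mul_assoc, hN₀sq, zero_mul, smul_zero]
      have h4 : φ g = 1 + M := by rw [hMdef]; abel
      rw [h4, add_mul, one_mul, mul_add, hN₀sq, zero_add, ← mul_assoc] at h3
      exact h3
    rw [mat2_sandwich N₀ M hN₀sq] at h2
    have h5 : (M * N₀).trace = 0 := by
      by_contra hne'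
      exact hN₀ne ((smul_eq_zero.mp h2).resolve_left hne')
    obtain ⟨c', hc'⟩ := mat2_smul_of_trace_mul_zero M N₀ hMsq hN₀sq hN₀ne h5
    exact ⟨c', by rw [← hc', hMdef]; abel⟩
  let U : Subgroup X :=
    { carrier := {h | ∃ c : F, φ h = 1 + c • N₀}
      one_mem' := ⟨0, by rw [map_one, zero_smul, add_zero]⟩
      mul_mem' := by
        rintro a b ⟨c, hc⟩ ⟨d, hd⟩
        refine ⟨c + d, ?_⟩
        rw [map_mul, hc, hd, add_mul, one_mul, mul_add, mul_one, smul_mul_smul_comm, hN₀sq,
          smul_zero, add_zero, add_smul]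
        abel
      inv_mem' := by
        rintro a ⟨c, hc⟩
        refine ⟨-c, ?_⟩
        have h1 : φ a * (1 + (-c) • N₀) = 1 := by
          rw [hc, add_mul, one_mul, mul_add, mul_one, smul_mul_smul_comm, hN₀sq, smul_zero,
            add_zero, neg_smul]
          abel
        have h2 : φ a⁻¹ * φ a = 1 := by rw [← map_mul, inv_mul_cancel, map_one]
        calc φ a⁻¹ = φ a⁻¹ * (φ a * (1 + (-c) • N₀)) := by rw [h1, mul_one]
          _ = 1 + (-c) • N₀ := by rw [← mul_assoc, h2, one_mul] }
  have hUmem : ∀ h : X, h ∈ U ↔ ∃ c : F, φ h = 1 + c • N₀ := fun h => Iff.rfl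
  have hUel : ∀ h ∈ U, h ^ p ^ 1 = 1 := by
    intro h hh
    obtain ⟨c, hc⟩ := (hUmem h).mp hh
    apply hinj
    rw [map_pow, map_one, pow_one]
    apply mat2_pow_char_of_trace_two (p := p) (φ h) (hdet h)
    rw [hc, Matrix.trace_add, Matrix.trace_one, Matrix.trace_smul, htrN, smul_zero, add_zero]
    simp
  have hUp : IsPGroup p U := by
    rintro ⟨h, hh⟩
    exact ⟨1, Subtype.ext (hUel h hh)⟩
  intro P
  have hPU : (P : Subgroup X) ≤ U := by
    intro h hh
    obtain ⟨k, hk⟩ := P.isPGroup' ⟨h, hh⟩
    exact (hUmem h).mpr (hform h ⟨k, by simpa using congrArg Subtype.val hk⟩)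
  have hPeq : U = (P : Subgroup X) := P.is_maximal' hUp hPU
  rw [← hPeq]
  constructor
  intro h hh g
  apply (hUmem _).mpr
  apply hform
  refine ⟨1, ?_⟩
  rw [conj_pow, hUel h hh]
  group

/-- The `SL₂(3)`-configuration: an element `x` of order `4` and a unipotent `u ≠ 1` such that
`x` and `u x u⁻¹` anticommute. -/
def Cfg (φ : X →* Matrix (Fin 2) (Fin 2) F) : Prop :=
  ∃ x u : X, φ x * φ x = -1 ∧ (φ u - 1) * (φ u - 1) = 0 ∧ u ≠ 1 ∧
    φ x * φ (u * x * u⁻¹) = -(φ (u * x * u⁻¹) * φ x)

theorem two_group_case (hp : p ≠ 2) (hinj : Function.Injective φ) (hdet : ∀ g, (φ g).det = 1)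
    (hsub : ∀ Y : Subgroup X, Y ≠ ⊤ → Cfsg.IsPClosed p ↥Y)
    (R : Subgroup X) (hRn : R.Normal) (hR2 : IsPGroup 2 R) (u : X) (hu : ∃ k : ℕ, u ^ p ^ k = 1)
    (x₀ : X) (hx₀ : x₀ ∈ R) (hx₀u : u * x₀ ≠ x₀ * u) :
    p = 3 ∧ Cfg φ := by
  have hpp : p.Prime := Fact.out
  have h2F : (2 : F) ≠ 0 := two_ne_zero_of_charP (F := F) (p := p) hp
  obtain ⟨k, hk⟩ := hu
  have hcop2 : Nat.Coprime 2 p := (Nat.coprime_primes Nat.prime_two hpp).mpr (Ne.symm hp)
  have hpow : ∀ m : ℕ, m.Coprime p → ∀ y : X, u ^ m * y = y * u ^ m → u * y = y * u := by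
    intro m hm y hy
    have h1 : m.Coprime (orderOf u) :=
      Nat.Coprime.coprime_dvd_right (orderOf_dvd_of_pow_eq_one hk) (Nat.Coprime.pow_right k hm)
    obtain ⟨j, hj⟩ := exists_pow_eq_self_of_coprime h1
    have h2 : Commute (u ^ m) y := hy
    have h3 := h2.pow_left j
    rw [hj] at h3
    exact h3
  have hZp : IsPGroup p (Subgroup.zpowers u) := by
    rintro ⟨_, z, rfl⟩
    refine ⟨k, Subtype.ext ?_⟩
    show (u ^ z) ^ p ^ k = 1
    rw [← zpow_natCast, ← _root_.zpow_mul, mul_comm, _root_.zpow_mul, zpow_natCast, hk, _root_.one_zpow]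
  have e2 : u ^ 2 = u * u := pow_two u
  have e3 : u ^ 3 = u * u * u := by rw [pow_succ, pow_two]
  have e4 : u ^ 4 = u * u * u * u := by rw [pow_succ, pow_succ, pow_two]
  have hRel : ∀ t ∈ R, ∃ i : ℕ, t ^ 2 ^ i = 1 := by
    intro t ht
    obtain ⟨i, hi⟩ := hR2 ⟨t, ht⟩
    exact ⟨i, by simpa using congrArg Subtype.val hi⟩
  have hpR : ∀ S : Subgroup X, S ≤ R → ¬ p ∣ Nat.card S := by
    intro S hS hdvd
    obtain ⟨n, hn⟩ := IsPGroup.iff_card.mp hR2
    have h1 : p ∣ 2 ^ n := by rw [← hn]; exact hdvd.trans (Subgroup.card_dvd_of_le hS)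
    have h2 := (Nat.Prime.dvd_of_dvd_pow hpp h1)
    exact hp ((Nat.prime_dvd_prime_iff_eq hpp Nat.prime_two).mp h2)
  have h2p : ∀ z : X, (∃ i : ℕ, z ^ 2 ^ i = 1) → (∃ j : ℕ, z ^ p ^ j = 1) → z = 1 := by
    rintro z ⟨i, hi⟩ ⟨j, hj⟩
    have h3 : orderOf z ∣ 2 ^ i := orderOf_dvd_of_pow_eq_one hi
    have h4 : orderOf z ∣ p ^ j := orderOf_dvd_of_pow_eq_one hj
    have h5 : Nat.Coprime (2 ^ i) (p ^ j) := Nat.Coprime.pow _ _ hcop2
    exact orderOf_eq_one_iff.mp (Nat.eq_one_of_dvd_coprimes h5 h3 h4)
  -- `u` centralizes the squares of `R`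
  have hsq : ∀ t ∈ R, u * (t * t) = (t * t) * u := by
    haveI := hRn
    set S : Subgroup X := (frattini ↥R).map R.subtype with hS
    haveI hSn : S.Normal := ConjAct.normal_of_characteristic_of_normal
    have hSR : S ≤ R := Subgroup.map_subtype_le _
    have hSne : S ≠ R := by
      intro h
      have hfr : frattini ↥R = ⊤ := by
        rw [eq_top_iff]
        intro r _
        have h1 : (r : X) ∈ S := by rw [h]; exact r.2
        obtain ⟨r', hr', hrr⟩ := h1
        have h2 : r' = r := Subtype.ext hrr
        rw [← h2]; exact hr'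
      have hnt : (⊥ : Subgroup ↥R) ≠ ⊤ := by
        intro hbt
        apply hx₀u
        have h1 : (⟨x₀, hx₀⟩ : ↥R) ∈ (⊥ : Subgroup ↥R) := by rw [hbt]; trivial
        have h2 : x₀ = 1 := by simpa using congrArg Subtype.val (Subgroup.mem_bot.mp h1)
        rw [h2, mul_one, one_mul]
      rcases eq_top_or_exists_le_coatom (⊥ : Subgroup ↥R) with h | ⟨M, hM, -⟩
      · exact hnt h
      · exact hM.1 (top_le_iff.mp (hfr ▸ frattini_le_coatom hM))
    have hY : S ⊔ Subgroup.zpowers u ≠ ⊤ := by
      intro hY
      apply hSne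
      apply le_antisymm hSR
      intro r hr
      have h1 : r ∈ (S ⊔ Subgroup.zpowers u : Subgroup X) := by rw [hY]; trivial
      rw [← SetLike.mem_coe, Subgroup.normal_mul] at h1
      obtain ⟨s, hs, z, hz, rfl⟩ := Set.mem_mul.mp h1
      have hzR : z ∈ R := by
        have := R.mul_mem (R.inv_mem (hSR hs)) hr
        simpa using this
      obtain ⟨j, hj⟩ := hZp ⟨z, hz⟩
      have hj' : z ^ p ^ j = 1 := by simpa using congrArg Subtype.val hj
      have hz1 : z = 1 := h2p z (hRel z hzR) ⟨j, hj'⟩
      rw [hz1, mul_one]; exact hs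
    have hYc := hsub _ hY
    intro t ht
    have htS : t * t ∈ S := by
      have h1 := Cfsg.Agent.H3.pow_mem_frattini hR2 ⟨t, ht⟩
      refine ⟨_, h1, ?_⟩
      simp [pow_two]
    exact Cfsg.Agent.H68.commute_of_pclosed (S ⊔ Subgroup.zpowers u) hYc (Subgroup.zpowers u) S
      le_sup_right le_sup_left hZp (hpR S hSR)
      (by rw [Subgroup.normalizer_eq_top]; exact le_top) (Subgroup.mem_zpowers u) htS
  have hF0 : ∀ y : X, (φ y = 1 ∨ φ y = -1) → u * y = y * u := by
    intro y hy
    apply hinj
    rw [map_mul, map_mul]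
    rcases hy with h | h <;> rw [h] <;> simp
  have hF1 : ∀ y ∈ R, u * y ≠ y * u → φ y * φ y = -1 := by
    intro y hy hne
    have hc := hsq y hy
    by_cases hns : (φ (y * y)) 0 1 ≠ 0 ∨ (φ (y * y)) 1 0 ≠ 0 ∨ (φ (y * y)) 0 0 ≠ (φ (y * y)) 1 1
    · exfalso
      apply hne
      apply hinj
      rw [map_mul, map_mul]
      apply mat2_comm_of_comm (φ (y * y)) _ _ hns
      · rw [← map_mul, ← map_mul, hc]
      · rw [← map_mul, ← map_mul, mul_assoc]
    · rcases mat2_scalar_eq _ (hdet _) hns with h | h
      · exfalso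
        rw [map_mul] at h
        exact hne (hF0 y (mat2_involution h2F _ (hdet y) h))
      · rw [← map_mul]; exact h
  have hy₀R : u * x₀ * u⁻¹ ∈ R := hRn.conj_mem x₀ hx₀ u
  have hconj_ne : ∀ w : X, u * w ≠ w * u → u * (u * w * u⁻¹) ≠ (u * w * u⁻¹) * u := by
    intro w hw h
    apply hw
    have h1 : u * (u * w * u⁻¹) = u * w := by rw [h]; group
    have h2 := mul_left_cancel h1
    exact mul_inv_eq_iff_eq_mul.mp h2
  set y := u * x₀ * u⁻¹ with hy
  have hyu : u * y ≠ y * u := hconj_ne x₀ hx₀u
  have ha : φ x₀ * φ x₀ = -1 := hF1 x₀ hx₀ hx₀u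
  have hb : φ y * φ y = -1 := hF1 y hy₀R hyu
  by_cases hA : ∃ t ∈ R, ((φ (t * t)) 0 1 ≠ 0 ∨ (φ (t * t)) 1 0 ≠ 0 ∨
      (φ (t * t)) 0 0 ≠ (φ (t * t)) 1 1)
  · -- an element of order at least `8`
    exfalso
    obtain ⟨t, ht, hns⟩ := hA
    have hut : u * t = t * u := by
      apply hinj
      rw [map_mul, map_mul]
      apply mat2_comm_of_comm (φ (t * t)) _ _ hns
      · rw [← map_mul, ← map_mul, hsq t ht]
      · rw [← map_mul, ← map_mul, mul_assoc]
    have hnst : (φ t) 0 1 ≠ 0 ∨ (φ t) 1 0 ≠ 0 ∨ (φ t) 0 0 ≠ (φ t) 1 1 := by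
      by_contra h
      have h1 := mat2_scalar_sq (φ t) h
      rw [← map_mul] at h1
      exact h1 hns
    have key : ∀ w ∈ R, u * w ≠ w * u → t * w * t = w := by
      intro w hw hwu
      have h1 := hF1 w hw hwu
      have h2 : u * (w * t) ≠ (w * t) * u := by
        intro h
        apply hwu
        have h3 : u * w * t = w * u * t := by
          rw [mul_assoc, h, mul_assoc, mul_assoc, hut]
        exact mul_right_cancel h3
      have h3 := hF1 (w * t) (R.mul_mem hw ht) h2
      have h4 : (w * t) * (w * t) = w * w := by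
        apply hinj
        rw [map_mul φ (w * t) (w * t), map_mul φ w w, h3, h1]
      have h5 : w * (t * w * t) = w * w := by rw [← h4]; group
      exact mul_left_cancel h5
    have h1 := key x₀ hx₀ hx₀u
    have h2 := key y hy₀R hyu
    have hct : (x₀⁻¹ * y) * t = t * (x₀⁻¹ * y) := by
      have e1 : x₀⁻¹ = t⁻¹ * x₀⁻¹ * t⁻¹ := by
        conv_lhs => rw [← h1]
        group
      have e2 : y * t = t⁻¹ * y := by
        rw [eq_inv_mul_iff_mul_eq, ← mul_assoc]; exact h2
      calc (x₀⁻¹ * y) * t = x₀⁻¹ * (y * t) := by rw [mul_assoc]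
        _ = x₀⁻¹ * (t⁻¹ * y) := by rw [e2]
        _ = t * (t⁻¹ * x₀⁻¹ * t⁻¹) * y := by group
        _ = t * (x₀⁻¹ * y) := by rw [← e1, mul_assoc]
    have hcu : (x₀⁻¹ * y) * u = u * (x₀⁻¹ * y) := by
      apply hinj
      rw [map_mul φ (x₀⁻¹ * y) u, map_mul φ u (x₀⁻¹ * y)]
      apply mat2_comm_of_comm (φ t) _ _ hnst
      · rw [← map_mul, ← map_mul, hct]
      · rw [← map_mul, ← map_mul, hut]
    have hcR : x₀⁻¹ * y ∈ R := R.mul_mem (R.inv_mem hx₀) hy₀R
    have hconj : u * x₀ = x₀ * u * (x₀⁻¹ * y) := by
      calc u * x₀ = x₀ * ((x₀⁻¹ * y) * u) := by rw [hy]; group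
        _ = x₀ * u * (x₀⁻¹ * y) := by rw [hcu, mul_assoc]
    have hpown : ∀ n : ℕ, u ^ n * x₀ = x₀ * u ^ n * (x₀⁻¹ * y) ^ n := by
      intro n
      induction n with
      | zero => simp
      | succ n ih =>
        have hcun : (x₀⁻¹ * y) ^ n * u = u * (x₀⁻¹ * y) ^ n := by
          have h3 : Commute (x₀⁻¹ * y) u := hcu
          exact (h3.pow_left n).eq
        calc u ^ (n + 1) * x₀ = u * (u ^ n * x₀) := by rw [pow_succ']; simp only [mul_assoc]
          _ = u * x₀ * (u ^ n * (x₀⁻¹ * y) ^ n) := by rw [ih]; simp only [mul_assoc]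
          _ = x₀ * u * ((x₀⁻¹ * y) * u ^ n) * (x₀⁻¹ * y) ^ n := by
            rw [hconj]; simp only [mul_assoc]
          _ = x₀ * u ^ (n + 1) * (x₀⁻¹ * y) ^ (n + 1) := by
            have h4 : (x₀⁻¹ * y) * u ^ n = u ^ n * (x₀⁻¹ * y) := by
              have h3 : Commute (x₀⁻¹ * y) u := hcu
              exact (h3.pow_right n).eq
            rw [h4, pow_succ', pow_succ']; simp only [mul_assoc]
    have h3 := hpown (p ^ k)
    rw [hk, one_mul, mul_one] at h3
    have hc1 : (x₀⁻¹ * y) ^ p ^ k = 1 := by
      have h4 : x₀ * 1 = x₀ * (x₀⁻¹ * y) ^ p ^ k := by rw [mul_one]; exact h3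
      exact (mul_left_cancel h4).symm
    have hc1' : x₀⁻¹ * y = 1 := h2p _ (hRel _ hcR) ⟨k, hc1⟩
    apply hx₀u
    have h5 : y = x₀ := by
      have := congrArg (fun g => x₀ * g) hc1'
      simpa using this
    rw [hy] at h5
    exact mul_inv_eq_iff_eq_mul.mp h5
  · -- exponent four
    have hB : ∀ t ∈ R, ¬ ((φ (t * t)) 0 1 ≠ 0 ∨ (φ (t * t)) 1 0 ≠ 0 ∨
        (φ (t * t)) 0 0 ≠ (φ (t * t)) 1 1) := fun t ht h => hA ⟨t, ht, h⟩
    have hE4 : ∀ t ∈ R, φ t = 1 ∨ φ t = -1 ∨ φ t * φ t = -1 := by
      intro t ht
      rcases mat2_scalar_eq _ (hdet _) (hB t ht) with h | h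
      · rw [map_mul] at h
        rcases mat2_involution h2F _ (hdet t) h with h' | h'
        · exact Or.inl h'
        · exact Or.inr (Or.inl h')
      · rw [map_mul] at h; exact Or.inr (Or.inr h)
    have hinva : (-φ x₀) * φ x₀ = 1 := by rw [neg_mul, ha, neg_neg]
    have hinvb : (-φ y) * φ y = 1 := by rw [neg_mul, hb, neg_neg]
    have hab : φ x₀ * φ y = -(φ y * φ x₀) := by
      rcases hE4 (x₀ * y) (R.mul_mem hx₀ hy₀R) with h | h | h
      · exfalso
        have h1 : x₀ * y = 1 := hinj (by rw [h, map_one])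
        apply hx₀u
        apply hpow 2 hcop2
        have h2 : u * x₀ * u⁻¹ = x₀⁻¹ := by rw [← hy]; exact eq_inv_of_mul_eq_one_right h1
        have h3 : u * x₀⁻¹ * u⁻¹ = x₀ := by
          have h4 := congrArg (fun g => g⁻¹) h2
          simp only [_root_.mul_inv_rev, inv_inv] at h4
          rw [mul_assoc]; exact h4
        calc u ^ 2 * x₀ = u * (u * x₀ * u⁻¹) * u := by rw [e2]; group
          _ = u * x₀⁻¹ * u⁻¹ * u ^ 2 := by rw [h2, e2]; group
          _ = x₀ * u ^ 2 := by rw [h3]
      · exfalso
        rw [map_mul] at h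
        have h1 : φ x₀ * φ y = φ x₀ * φ x₀ := by rw [h, ha]
        have h2 : (-φ x₀) * (φ x₀ * φ y) = (-φ x₀) * (φ x₀ * φ x₀) := by rw [h1]
        rw [← mul_assoc, ← mul_assoc, hinva, one_mul, one_mul] at h2
        have h4 : y = x₀ := hinj h2
        apply hx₀u
        rw [hy] at h4
        exact mul_inv_eq_iff_eq_mul.mp h4
      · rw [map_mul] at h
        exact anticomm_of_sq _ _ ha hb h
    have hu1 : u ≠ 1 := by
      intro h
      apply hx₀u
      rw [h, one_mul, mul_one]
    by_cases hp3 : p = 3
    · exact ⟨hp3, x₀, u, ha, mat2_sub_one_sq_of_trace_two _ (hdet u)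
        (trace_of_pelement φ ⟨k, hk⟩), hu1, hab⟩
    · exfalso
      have hz₀R : u * y * u⁻¹ ∈ R := hRn.conj_mem y hy₀R u
      set z := u * y * u⁻¹ with hz
      have hU : φ u * φ u⁻¹ = 1 := by rw [← map_mul, mul_inv_cancel, map_one]
      have hU' : φ u⁻¹ * φ u = 1 := by rw [← map_mul, inv_mul_cancel, map_one]
      have hbU : φ y = φ u * φ x₀ * φ u⁻¹ := by rw [hy, map_mul, map_mul]
      have hcU : φ z = φ u * φ y * φ u⁻¹ := by rw [hz, map_mul, map_mul]
      have hcc : φ z * φ z = -1 := by
        rw [hcU]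
        calc φ u * φ y * φ u⁻¹ * (φ u * φ y * φ u⁻¹)
            = φ u * (φ y * ((φ u⁻¹ * φ u) * φ y)) * φ u⁻¹ := by simp only [mul_assoc]
          _ = -1 := by rw [hU', one_mul, hb, mul_neg, mul_one, neg_mul, hU]
      have hba : φ y * φ x₀ = -(φ x₀ * φ y) := by rw [hab, neg_neg]
      have hbab : φ y * φ x₀ * φ y = φ x₀ := by
        rw [hba, neg_mul, mul_assoc, hb, mul_neg, mul_one, neg_neg]
      have hc6 : φ z = φ x₀ ∨ φ z = -φ x₀ ∨ φ z = φ y ∨ φ z = -φ y ∨ φ z = φ x₀ * φ y ∨
          φ z = -(φ x₀ * φ y) := by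
        rcases hE4 (x₀ * z) (R.mul_mem hx₀ hz₀R) with h | h | h
        · rw [map_mul] at h
          right; left
          calc φ z = (-φ x₀) * (φ x₀ * φ z) := by rw [← mul_assoc, hinva, one_mul]
            _ = -φ x₀ := by rw [h, mul_one]
        · rw [map_mul] at h
          left
          calc φ z = (-φ x₀) * (φ x₀ * φ z) := by rw [← mul_assoc, hinva, one_mul]
            _ = φ x₀ := by rw [h]; simp
        · rw [map_mul] at h
          have hac := anticomm_of_sq _ _ ha hcc h
          rcases hE4 (y * z) (R.mul_mem hy₀R hz₀R) with h' | h' | h'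
          · rw [map_mul] at h'
            right; right; right; left
            calc φ z = (-φ y) * (φ y * φ z) := by rw [← mul_assoc, hinvb, one_mul]
              _ = -φ y := by rw [h', mul_one]
          · rw [map_mul] at h'
            right; right; left
            calc φ z = (-φ y) * (φ y * φ z) := by rw [← mul_assoc, hinvb, one_mul]
              _ = φ y := by rw [h']; simp
          · rw [map_mul] at h'
            have hbc := anticomm_of_sq _ _ hb hcc h'
            have habab : (φ x₀ * φ y) * (φ x₀ * φ y) = -1 := by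
              calc (φ x₀ * φ y) * (φ x₀ * φ y) = φ x₀ * (φ y * φ x₀ * φ y) := by
                    simp only [mul_assoc]
                _ = -1 := by rw [hbab, ha]
            have hinvab : (-(φ x₀ * φ y)) * (φ x₀ * φ y) = 1 := by
              rw [neg_mul, habab, neg_neg]
            rcases hE4 (x₀ * y * z) (R.mul_mem (R.mul_mem hx₀ hy₀R) hz₀R) with h'' | h'' | h''
            · rw [map_mul, map_mul] at h''
              right; right; right; right; right
              calc φ z = (-(φ x₀ * φ y)) * (φ x₀ * φ y * φ z) := by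
                    rw [← mul_assoc, hinvab, one_mul]
                _ = -(φ x₀ * φ y) := by rw [h'', mul_one]
            · rw [map_mul, map_mul] at h''
              right; right; right; right; left
              calc φ z = (-(φ x₀ * φ y)) * (φ x₀ * φ y * φ z) := by
                    rw [← mul_assoc, hinvab, one_mul]
                _ = φ x₀ * φ y := by rw [h'']; simp
            · exfalso
              rw [map_mul, map_mul] at h''
              have h7 := sq_of_three_anticomm _ _ _ ha hb hcc hab hac hbc
              rw [h''] at h7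
              have h00 := congrFun (congrFun h7 0) 0
              simp only [Matrix.neg_apply, Matrix.one_apply_eq] at h00
              apply h2F
              linear_combination -h00
      -- conjugation by `u`
      have hcj : ∀ m n : Matrix (Fin 2) (Fin 2) F,
          φ u * (m * n) * φ u⁻¹ = (φ u * m * φ u⁻¹) * (φ u * n * φ u⁻¹) := by
        intro m n
        calc φ u * (m * n) * φ u⁻¹ = φ u * m * (1 * n) * φ u⁻¹ := by
              rw [one_mul]; simp only [mul_assoc]
          _ = (φ u * m * φ u⁻¹) * (φ u * n * φ u⁻¹) := by rw [← hU']; simp only [mul_assoc]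
      have hcjn : ∀ m : Matrix (Fin 2) (Fin 2) F, φ u * (-m) * φ u⁻¹ = -(φ u * m * φ u⁻¹) := by
        intro m
        rw [mul_neg, neg_mul]
      have hcop3 : Nat.Coprime 3 p := (Nat.coprime_primes Nat.prime_three hpp).mpr (Ne.symm hp3)
      have hcop4 : Nat.Coprime 4 p := by
        have : (4 : ℕ) = 2 ^ 2 := by norm_num
        rw [this]; exact Nat.Coprime.pow_left 2 hcop2
      have hthree : φ (u * z * u⁻¹) = φ x₀ → False := by
        intro h
        have h1 : u * z * u⁻¹ = x₀ := hinj h
        apply hx₀u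
        apply hpow 3 hcop3
        calc u ^ 3 * x₀ = u * (u * (u * x₀ * u⁻¹) * u⁻¹) * u⁻¹ * u ^ 3 := by rw [e3]; group
          _ = x₀ * u ^ 3 := by rw [← hy, ← hz, h1]
      rcases hc6 with h | h | h | h | h | h
      · -- `z = x₀`
        have h1 : z = x₀ := hinj h
        apply hx₀u
        apply hpow 2 hcop2
        calc u ^ 2 * x₀ = u * (u * x₀ * u⁻¹) * u⁻¹ * u ^ 2 := by rw [e2]; group
          _ = x₀ * u ^ 2 := by rw [← hy, ← hz, h1]
      · -- `z = -x₀`
        have h1 : φ (u * z * u⁻¹) = -φ y := by
          rw [map_mul, map_mul, h, hcjn, ← hbU]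
        have h2 : φ (u * (u * z * u⁻¹) * u⁻¹) = φ x₀ := by
          rw [map_mul, map_mul, h1, hcjn, ← hcU, h, neg_neg]
        have h3 : u * (u * z * u⁻¹) * u⁻¹ = x₀ := hinj h2
        apply hx₀u
        apply hpow 4 hcop4
        calc u ^ 4 * x₀ = u * (u * (u * (u * x₀ * u⁻¹) * u⁻¹) * u⁻¹) * u⁻¹ * u ^ 4 := by
              rw [e4]; group
          _ = x₀ * u ^ 4 := by rw [← hy, ← hz, h3]
      · -- `z = y`
        have h1 : z = y := hinj h
        apply hyu
        rw [hz] at h1
        exact mul_inv_eq_iff_eq_mul.mp h1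
      · -- `z = -y`
        have h1 : φ (u * z * u⁻¹) = φ y := by
          rw [map_mul, map_mul, h, hcjn, ← hcU, h, neg_neg]
        have h2 : u * z * u⁻¹ = y := hinj h1
        apply hyu
        apply hpow 2 hcop2
        calc u ^ 2 * y = u * (u * y * u⁻¹) * u⁻¹ * u ^ 2 := by rw [e2]; group
          _ = y * u ^ 2 := by rw [← hz, h2]
      · -- `z = x₀ y`
        apply hthree
        rw [map_mul, map_mul, h, hcj, ← hbU, ← hcU, h, ← mul_assoc, hbab]
      · -- `z = -(x₀ y)`
        apply hthree
        rw [map_mul, map_mul, h, hcjn, hcj, ← hbU, ← hcU, h, mul_neg, neg_neg, ← mul_assoc, hbab]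


end psolv

/-- **`p`-solvable subgroups of `SL₂(F)`** (`char F = p` odd): a finite `p`-solvable group with a
faithful `2`-dimensional representation of determinant `1` in characteristic `p` is `p`-closed,
or `p = 3` and the `SL₂(3)`-configuration occurs. -/
theorem psolv_sl2 {F : Type v} [Field F] (p : ℕ) [Fact p.Prime] [CharP F p] (hp : p ≠ 2) :
    ∀ (n : ℕ) (X : Type u) [Group X] [Finite X], Nat.card X ≤ n → Cfsg.IsPSolvable p X →
      ∀ φ : X →* Matrix (Fin 2) (Fin 2) F, Function.Injective φ → (∀ g, (φ g).det = 1) →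
      Cfsg.IsPClosed p X ∨ (p = 3 ∧ Cfg φ) := by
  intro n
  induction n with
  | zero =>
    intro X _ _ hn
    exact absurd hn (by have := Nat.card_pos (α := X); omega)
  | succ n ih =>
    intro X _ _ hn hsol φ hinj hdet
    by_contra hcon
    obtain ⟨hnc, hncfg⟩ := not_or.mp hcon
    have hpp : p.Prime := Fact.out
    have hsub : ∀ Y : Subgroup X, Y ≠ ⊤ → Cfsg.IsPClosed p ↥Y := by
      intro Y hY
      have hlt : Nat.card Y < Nat.card X := by
        rcases (Subgroup.card_le_card_group Y).lt_or_eq with h | h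
        · exact h
        · exact absurd (Subgroup.eq_top_of_card_eq Y h) hY
      rcases ih ↥Y (by omega) (Cfsg.Agent.H73.isPSolvable_subgroup hsol Y) (φ.comp Y.subtype)
          (hinj.comp Subtype.val_injective) (fun g => hdet _) with h | ⟨h3, x, u, h1, h2, h4, h5⟩
      · exact h
      · exfalso
        exact hncfg ⟨h3, (x : X), (u : X), h1, h2, fun h => h4 (Subtype.ext h), h5⟩
    have hclosed : ∀ P : Sylow p X, (P : Subgroup X).Normal → False := by
      intro P hP
      apply hnc
      intro Q
      obtain ⟨g, rfl⟩ := MulAction.exists_smul_eq X P Q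
      haveI := hP
      rw [Sylow.smul_eq_of_normal]
      exact hP
    have hOp : ∀ P₀ : Subgroup X, P₀.Normal → IsPGroup p P₀ → P₀ = ⊥ := by
      intro P₀ h1 h2
      by_contra h3
      exact hnc (isPClosed_of_normal_pgroup φ hinj hdet P₀ h1 h2 h3)
    obtain ⟨m, H, h0, hlast, hmono, hnorm, hfac⟩ := hsol
    have hchain : ∀ i : Fin (m + 1), H i = ⊤ → False := by
      intro i
      induction i using Fin.induction with
      | zero =>
        intro h
        rw [h0] at h
        obtain ⟨P⟩ : Nonempty (Sylow p X) := inferInstance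
        apply hclosed P
        have hP : (P : Subgroup X) = ⊥ := by
          rw [eq_bot_iff, h]; exact le_top
        rw [hP]
        infer_instance
      | succ i ihi =>
        intro htop
        by_cases hM : H i.castSucc = ⊤
        · exact ihi hM
        · set M := H i.castSucc with hMdef
          haveI hMn : M.Normal := hnorm _
          have hMc := hsub M hM
          have hpM : ¬ p ∣ Nat.card M := by
            intro hdvd
            obtain ⟨PM⟩ : Nonempty (Sylow p ↥M) := inferInstance
            have hPMn := hMc PM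
            haveI hchar : (PM : Subgroup ↥M).Characteristic := PM.characteristic_of_normal hPMn
            have hNn : ((PM : Subgroup ↥M).map M.subtype).Normal :=
              ConjAct.normal_of_characteristic_of_normal
            have hbot := hOp _ hNn (PM.isPGroup'.map M.subtype)
            have hPMbot : (PM : Subgroup ↥M) = ⊥ :=
              (Subgroup.map_eq_bot_iff_of_injective _ (Subgroup.subtype_injective M)).mp hbot
            exact PM.ne_bot_of_dvd_card hdvd hPMbot
          have hidx := hfac i
          rw [htop, Subgroup.relIndex_top_right] at hidx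
          have hcard : Nat.card M * M.index = Nat.card X := Subgroup.card_mul_index M
          obtain ⟨P⟩ : Nonempty (Sylow p X) := inferInstance
          rcases hidx with ⟨e, he⟩ | hcop
          · by_cases hcent : ∀ v ∈ (P : Subgroup X), ∀ q ∈ M, v * q = q * v
            · apply hclosed P
              have hcardP : Nat.card (P : Subgroup X) = p ^ e := by
                rw [P.card_eq_multiplicity, ← hcard, he,
                  Nat.factorization_mul Nat.card_pos.ne' (pow_ne_zero _ hpp.ne_zero)]
                simp [Nat.factorization_eq_zero_of_not_dvd hpM, hpp.factorization_pow]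
              have hcompl : Subgroup.IsComplement' M (P : Subgroup X) :=
                Subgroup.isComplement'_of_coprime (by rw [hcardP, ← he]; exact hcard)
                  (by rw [hcardP]
                      exact Nat.Coprime.pow_right _
                        ((Nat.Prime.coprime_iff_not_dvd hpp).mpr hpM).symm)
              have hsup := hcompl.sup_eq_top
              rw [← Subgroup.normalizer_eq_top_iff, eq_top_iff, ← hsup]
              refine sup_le ?_ Subgroup.le_normalizer
              intro q hq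
              rw [Subgroup.mem_normalizer_iff]
              intro v
              constructor
              · intro hv
                have h1 : q * v * q⁻¹ = v := by rw [← hcent v hv q hq]; group
                rw [h1]; exact hv
              · intro hv
                have h1 := hcent _ hv q hq
                have h2 : q * v * q⁻¹ = v := by
                  have h3 : q * v = q * (q * v * q⁻¹) := by rw [← h1]; group
                  exact (mul_left_cancel h3).symm
                rw [← h2]; exact hv
            · push Not at hcent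
              obtain ⟨v, hvP, q, hqM, hvq⟩ := hcent
              obtain ⟨k, hk⟩ := P.isPGroup' ⟨v, hvP⟩
              have hk' : v ^ p ^ k = 1 := by simpa using congrArg Subtype.val hk
              have hZp : IsPGroup p (Subgroup.zpowers v) := by
                rintro ⟨_, z, rfl⟩
                refine ⟨k, Subtype.ext ?_⟩
                show (v ^ z) ^ p ^ k = 1
                rw [← zpow_natCast, ← _root_.zpow_mul, mul_comm, _root_.zpow_mul, zpow_natCast,
                  hk', _root_.one_zpow]
              have hex : ∃ r : ℕ, r.Prime ∧ ∃ R : Subgroup X, IsPGroup r R ∧ R ≤ M ∧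
                  v ∈ Subgroup.normalizer (R : Set X) ∧ R ⊔ Subgroup.zpowers v = ⊤ := by
                by_contra hno
                push Not at hno
                apply hvq
                have hC : M ≤ Subgroup.centralizer ({v} : Set X) := by
                  have hle : Nat.card M ∣
                      Nat.card (M ⊓ Subgroup.centralizer ({v} : Set X) : Subgroup X) := by
                    rw [← Nat.factorization_prime_le_iff_dvd Nat.card_pos.ne' Nat.card_pos.ne']
                    intro r hr
                    haveI : Fact r.Prime := ⟨hr⟩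
                    obtain ⟨Q, hQM, hQcard, hQr, hPQ⟩ :=
                      Cfsg.Agent.H68.exists_invariant_sylow M hpM P r
                    have hQv : Q ⊔ Subgroup.zpowers v ≠ ⊤ := hno r hr Q hQr hQM (hPQ hvP)
                    have hQC : Q ≤ M ⊓ Subgroup.centralizer ({v} : Set X) := by
                      refine le_inf hQM ?_
                      intro x hx
                      rw [Subgroup.mem_centralizer_singleton_iff]
                      exact (Cfsg.Agent.H68.commute_of_pclosed _ (hsub _ hQv)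
                        (Subgroup.zpowers v) Q le_sup_right le_sup_left hZp
                        (fun hd => hpM (hd.trans (Subgroup.card_dvd_of_le hQM)))
                        (sup_le Subgroup.le_normalizer
                          (by rw [Subgroup.zpowers_le]; exact hPQ hvP))
                        (Subgroup.mem_zpowers v) hx).symm
                    have h1 := Subgroup.card_dvd_of_le hQC
                    rw [hQcard] at h1
                    exact (Nat.Prime.pow_dvd_iff_le_factorization hr Nat.card_pos.ne').mp h1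
                  have heq : M ⊓ Subgroup.centralizer ({v} : Set X) = M :=
                    Subgroup.eq_of_le_of_card_ge inf_le_left (Nat.le_of_dvd Nat.card_pos hle)
                  rw [← heq]; exact inf_le_right
                exact (Subgroup.mem_centralizer_singleton_iff.mp (hC hqM)).symm
              obtain ⟨r, hr, R, hRr, hRM, hRv, hRtop⟩ := hex
              haveI : Fact r.Prime := ⟨hr⟩
              have hRn : R.Normal := by
                rw [← Subgroup.normalizer_eq_top_iff, eq_top_iff, ← hRtop]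
                refine sup_le Subgroup.le_normalizer ?_
                rw [Subgroup.zpowers_le]
                exact hRv
              have hx₀ : ∃ x₀ ∈ R, v * x₀ ≠ x₀ * v := by
                by_contra hall
                push Not at hall
                apply hvq
                have h1 : (⊤ : Subgroup X) ≤ Subgroup.centralizer ({v} : Set X) := by
                  rw [← hRtop]
                  refine sup_le ?_ ?_
                  · intro x hx
                    rw [Subgroup.mem_centralizer_singleton_iff]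
                    exact (hall x hx).symm
                  · rw [Subgroup.zpowers_le, Subgroup.mem_centralizer_singleton_iff]
                exact (Subgroup.mem_centralizer_singleton_iff.mp (h1 (Subgroup.mem_top q))).symm
              obtain ⟨x₀, hx₀R, hx₀v⟩ := hx₀
              by_cases hr2 : r = 2
              · subst hr2
                exact hncfg (two_group_case φ hp hinj hdet hsub R hRn hRr v ⟨k, hk'⟩ x₀ hx₀R hx₀v)
              · have hodd : Odd (Nat.card X) := by
                  have h1 : R.index ∣ Nat.card (Subgroup.zpowers v) := by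
                    rw [← Subgroup.relIndex_top_right, ← hRtop, Subgroup.relIndex_sup_left]
                    exact Subgroup.relIndex_dvd_card _ _
                  have h2 : Nat.card X = Nat.card R * R.index := (Subgroup.card_mul_index R).symm
                  obtain ⟨a, ha⟩ := IsPGroup.iff_card.mp hRr
                  obtain ⟨b, hb⟩ := IsPGroup.iff_card.mp hZp
                  rw [hb] at h1
                  have hrodd : Odd r := hr.odd_of_ne_two hr2
                  have hpodd : Odd p := hpp.odd_of_ne_two hp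
                  rw [h2, ha]
                  exact Odd.mul (Odd.pow hrodd) (Odd.of_dvd_nat (Odd.pow hpodd) h1)
                obtain ⟨P', hP'⟩ := sl2_odd_sylow_normal p hp (Nat.card X) X le_rfl hodd φ hinj hdet
                exact hclosed P' hP'
          · apply hclosed P
            have hP : (P : Subgroup X) = ⊥ := by
              apply Subgroup.eq_bot_of_card_eq
              rw [P.card_eq_multiplicity, ← hcard,
                Nat.factorization_mul Nat.card_pos.ne' (Subgroup.index_ne_zero_of_finite)]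
              have hidx0 : M.index.factorization p = 0 :=
                Nat.factorization_eq_zero_of_not_dvd
                  (fun hd => (Nat.Prime.coprime_iff_not_dvd hpp).mp hcop.symm hd)
              simp [Nat.factorization_eq_zero_of_not_dvd hpM, hidx0]
            rw [hP]
            infer_instance
    exact hchain (Fin.last m) hlast

end Cfsg.Agent.H2
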