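import Mathlib
import Cfsg.Agent.H2.PSolvSL2

/-!
# Embedding `SL₂(3)` from the `SL₂(3)`-configuration

If `N` is a nonzero square-zero `2×2` matrix over a field `K` of characteristic `3` and `x` a
matrix with `x² = -1`, `N x N = N`, `N x + x N = 1`, then `N x, N, x N x, x N` is a system of
matrix units and `M ↦ Σ Mᵢⱼ Eᵢⱼ` embeds `SL₂(𝔽₃)`, sending the standard generators to `x` and
`1 + N`.
-/

set_option autoImplicit false

namespace Cfsg.Agent.H2

open Matrix

universe u v

section units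

variable {K : Type v} [Field K]

/-- A system of `2×2` matrix units. -/
structure MatUnits {A : Type*} [Ring A] (e11 e12 e21 e22 : A) : Prop where
  h1111 : e11 * e11 = e11
  h1112 : e11 * e12 = e12
  h1121 : e11 * e21 = 0
  h1122 : e11 * e22 = 0
  h1211 : e12 * e11 = 0
  h1212 : e12 * e12 = 0
  h1221 : e12 * e21 = e11
  h1222 : e12 * e22 = e12
  h2111 : e21 * e11 = e21
  h2112 : e21 * e12 = e22
  h2121 : e21 * e21 = 0
  h2122 : e21 * e22 = 0
  h2211 : e22 * e11 = 0
  h2212 : e22 * e12 = 0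
  h2221 : e22 * e21 = e21
  h2222 : e22 * e22 = e22

theorem units_mul {A : Type*} [Ring A] [Algebra K A] {e11 e12 e21 e22 : A}
    (h : MatUnits e11 e12 e21 e22) (a b c d a' b' c' d' : K) :
    (a • e11 + b • e12 + c • e21 + d • e22) * (a' • e11 + b' • e12 + c' • e21 + d' • e22)
      = (a * a' + b * c') • e11 + (a * b' + b * d') • e12 + (c * a' + d * c') • e21
        + (c * b' + d * d') • e22 := by
  simp only [add_mul, mul_add, smul_mul_smul_comm, h.h1111, h.h1112, h.h1121, h.h1122, h.h1211,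
    h.h1212, h.h1221, h.h1222, h.h2111, h.h2112, h.h2121, h.h2122, h.h2211, h.h2212, h.h2221,
    h.h2222, smul_zero, add_zero, zero_add, add_smul]
  abel

theorem units_coeff {A : Type*} [Ring A] [Algebra K A] {e11 e12 e21 e22 : A}
    (h : MatUnits e11 e12 e21 e22) (he : e12 ≠ 0) (a b c d : K)
    (hW : a • e11 + b • e12 + c • e21 + d • e22 = e11 + e22) :
    a = 1 ∧ b = 0 ∧ c = 0 ∧ d = 1 := by
  have he21 : e21 ≠ 0 := by
    intro h0
    have h1 := h.h1221
    rw [h0, mul_zero] at h1
    have h2 := h.h1112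
    rw [← h1, zero_mul] at h2
    exact he h2.symm
  have ha : a • e12 = e12 := by
    have h1 := congrArg (fun W => e11 * W * e12) hW
    simp only [mul_add, add_mul, mul_smul_comm, smul_mul_assoc, h.h1111, h.h1112, h.h1121,
      h.h1122, h.h1212, h.h2112, h.h2212, smul_zero, add_zero, zero_add, zero_mul,
      mul_zero] at h1
    exact h1
  have hb : b • e12 = 0 := by
    have h1 := congrArg (fun W => e11 * W * e22) hW
    simp only [mul_add, add_mul, mul_smul_comm, smul_mul_assoc, h.h1111, h.h1112, h.h1121,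
      h.h1122, h.h1222, h.h2122, h.h2222, smul_zero, add_zero, zero_add, zero_mul,
      mul_zero] at h1
    exact h1
  have hc : c • e21 = 0 := by
    have h1 := congrArg (fun W => e22 * W * e11) hW
    simp only [mul_add, add_mul, mul_smul_comm, smul_mul_assoc, h.h2211, h.h2212, h.h2221,
      h.h2222, h.h1111, h.h1211, h.h2111, smul_zero, add_zero, zero_add, zero_mul,
      mul_zero] at h1
    exact h1
  have hd : d • e12 = e12 := by
    have h1 := congrArg (fun W => e12 * W * e22) hW
    simp only [mul_add, add_mul, mul_smul_comm, smul_mul_assoc, h.h1211, h.h1212, h.h1221,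
      h.h1222, h.h1122, h.h2122, h.h2222, smul_zero, add_zero, zero_add, zero_mul,
      mul_zero] at h1
    exact h1
  refine ⟨?_, (smul_eq_zero.mp hb).resolve_right he, (smul_eq_zero.mp hc).resolve_right he21, ?_⟩
  · have h1 : (a - 1) • e12 = 0 := by rw [sub_smul, ha, one_smul, sub_self]
    exact sub_eq_zero.mp ((smul_eq_zero.mp h1).resolve_right he)
  · have h1 : (d - 1) • e12 = 0 := by rw [sub_smul, hd, one_smul, sub_self]
    exact sub_eq_zero.mp ((smul_eq_zero.mp h1).resolve_right he)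

end units

section sl23

variable {K : Type v} [Field K] [CharP K 3]

/-- The cast `𝔽₃ → K`. -/
noncomputable def c3 : ZMod 3 →+* K := ZMod.castHom (dvd_refl 3) K

/-- The standard generators of `SL₂(𝔽₃)`. -/
def S0 : Matrix.SpecialLinearGroup (Fin 2) (ZMod 3) := ⟨!![0, -1; 1, 0], by decide⟩

def T0 : Matrix.SpecialLinearGroup (Fin 2) (ZMod 3) := ⟨!![1, 1; 0, 1], by decide⟩

theorem sl23_words : ∀ a b c d : ZMod 3, a * d - b * c = 1 →
    ∃ e : Fin 2, ∃ i : Fin 3, ∃ δ : Fin 2, ∃ k : Fin 3,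
      (!![a, b; c, d] : Matrix (Fin 2) (Fin 2) (ZMod 3)) =
        (!![0, -1; 1, 0] : Matrix (Fin 2) (Fin 2) (ZMod 3)) ^ (2 * e.val)
          * (!![1, 1; 0, 1] : Matrix (Fin 2) (Fin 2) (ZMod 3)) ^ i.val
          * (!![0, -1; 1, 0] : Matrix (Fin 2) (Fin 2) (ZMod 3)) ^ δ.val
          * (!![1, 1; 0, 1] : Matrix (Fin 2) (Fin 2) (ZMod 3)) ^ k.val := by
  decide

theorem sl23_closure : Subgroup.closure ({S0, T0} : Set (Matrix.SpecialLinearGroup (Fin 2) (ZMod 3)))
    = ⊤ := by
  rw [eq_top_iff]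
  intro M _
  have h2 : M.1 = !![M.1 0 0, M.1 0 1; M.1 1 0, M.1 1 1] := Matrix.eta_fin_two M.1
  have h3 : M.1 0 0 * M.1 1 1 - M.1 0 1 * M.1 1 0 = 1 := by
    rw [← Matrix.det_fin_two]; exact M.2
  obtain ⟨e, i, δ, k, h⟩ := sl23_words _ _ _ _ h3
  have hS : S0 ∈ Subgroup.closure ({S0, T0} : Set (Matrix.SpecialLinearGroup (Fin 2) (ZMod 3))) :=
    Subgroup.subset_closure (by simp)
  have hT : T0 ∈ Subgroup.closure ({S0, T0} : Set (Matrix.SpecialLinearGroup (Fin 2) (ZMod 3))) :=
    Subgroup.subset_closure (by simp)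
  have hM : M = S0 ^ (2 * e.val) * T0 ^ i.val * S0 ^ δ.val * T0 ^ k.val := by
    apply Subtype.ext
    rw [h2, h]
    simp only [Matrix.SpecialLinearGroup.coe_mul, Matrix.SpecialLinearGroup.coe_pow]
    rfl
  rw [hM]
  exact Subgroup.mul_mem _ (Subgroup.mul_mem _ (Subgroup.mul_mem _ (Subgroup.pow_mem _ hS _)
    (Subgroup.pow_mem _ hT _)) (Subgroup.pow_mem _ hS _)) (Subgroup.pow_mem _ hT _)

/-- The map `SL₂(𝔽₃) → M₂(K)` attached to `N, x`. -/
noncomputable def sl23Fun (N x : Matrix (Fin 2) (Fin 2) K)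
    (M : Matrix.SpecialLinearGroup (Fin 2) (ZMod 3)) : Matrix (Fin 2) (Fin 2) K :=
  (c3 (K := K) (M.1 0 0)) • (N * x) + (c3 (K := K) (M.1 0 1)) • N
    + (c3 (K := K) (M.1 1 0)) • (x * N * x) + (c3 (K := K) (M.1 1 1)) • (x * N)

variable (N x : Matrix (Fin 2) (Fin 2) K) (hN : N * N = 0) (hx : x * x = -1)
  (hNx : N * x * N = N)

include hN hx hNx

theorem matUnits_of : MatUnits (N * x) N (x * N * x) (x * N) where
  h1111 := by
    calc (N * x) * (N * x) = (N * x * N) * x := by simp only [mul_assoc]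
      _ = N * x := by rw [hNx]
  h1112 := hNx
  h1121 := by
    calc (N * x) * (x * N * x) = N * (x * x) * N * x := by simp only [mul_assoc]
      _ = 0 := by rw [hx, mul_neg, mul_one, neg_mul, hN, neg_zero, zero_mul]
  h1122 := by
    calc (N * x) * (x * N) = N * (x * x) * N := by simp only [mul_assoc]
      _ = 0 := by rw [hx, mul_neg, mul_one, neg_mul, hN, neg_zero]
  h1211 := by rw [← mul_assoc, hN, zero_mul]
  h1212 := hN
  h1221 := by
    calc N * (x * N * x) = (N * x * N) * x := by simp only [mul_assoc]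
      _ = N * x := by rw [hNx]
  h1222 := by rw [← mul_assoc]; exact hNx
  h2111 := by
    calc (x * N * x) * (N * x) = x * (N * x * N) * x := by simp only [mul_assoc]
      _ = x * N * x := by rw [hNx]
  h2112 := by
    calc (x * N * x) * N = x * (N * x * N) := by simp only [mul_assoc]
      _ = x * N := by rw [hNx]
  h2121 := by
    calc (x * N * x) * (x * N * x) = x * (N * (x * x) * N) * x := by simp only [mul_assoc]
      _ = 0 := by rw [hx, mul_neg, mul_one, neg_mul, hN, neg_zero, mul_zero, zero_mul]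
  h2122 := by
    calc (x * N * x) * (x * N) = x * (N * (x * x) * N) := by simp only [mul_assoc]
      _ = 0 := by rw [hx, mul_neg, mul_one, neg_mul, hN, neg_zero, mul_zero]
  h2211 := by
    calc (x * N) * (N * x) = x * (N * N) * x := by simp only [mul_assoc]
      _ = 0 := by rw [hN, mul_zero, zero_mul]
  h2212 := by rw [mul_assoc, hN, mul_zero]
  h2221 := by
    calc (x * N) * (x * N * x) = x * (N * x * N) * x := by simp only [mul_assoc]
      _ = x * N * x := by rw [hNx]
  h2222 := by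
    calc (x * N) * (x * N) = x * (N * x * N) := by simp only [mul_assoc]
      _ = x * N := by rw [hNx]

theorem sl23Fun_mul (M M' : Matrix.SpecialLinearGroup (Fin 2) (ZMod 3)) :
    sl23Fun N x (M * M') = sl23Fun N x M * sl23Fun N x M' := by
  unfold sl23Fun
  rw [units_mul (matUnits_of N x hN hx hNx)]
  simp only [Matrix.SpecialLinearGroup.coe_mul, Matrix.mul_apply, Fin.sum_univ_two, map_add,
    map_mul]

variable (hsum : N * x + x * N = 1)

include hsum

theorem sl23Fun_one : sl23Fun N x 1 = 1 := by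
  unfold sl23Fun
  simp only [Matrix.SpecialLinearGroup.coe_one, Matrix.one_apply_eq, map_one, one_smul, ne_eq,
    zero_ne_one, not_false_eq_true, Matrix.one_apply_ne, one_ne_zero, map_zero, zero_smul,
    add_zero]
  exact hsum

/-- The homomorphism `SL₂(𝔽₃) → M₂(K)` attached to `N, x`. -/
noncomputable def sl23Hom : Matrix.SpecialLinearGroup (Fin 2) (ZMod 3) →* Matrix (Fin 2) (Fin 2) K where
  toFun := sl23Fun N x
  map_one' := sl23Fun_one N x hN hx hNx hsum
  map_mul' := sl23Fun_mul N x hN hx hNx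

theorem sl23Hom_apply (M : Matrix.SpecialLinearGroup (Fin 2) (ZMod 3)) :
    sl23Hom N x hN hx hNx hsum M = sl23Fun N x M := rfl

theorem sl23Hom_S : sl23Hom N x hN hx hNx hsum S0 = x := by
  rw [sl23Hom_apply]
  unfold sl23Fun
  have h1 : (S0 : Matrix.SpecialLinearGroup (Fin 2) (ZMod 3)).1 0 0 = 0 := rfl
  have h2 : (S0 : Matrix.SpecialLinearGroup (Fin 2) (ZMod 3)).1 0 1 = -1 := rfl
  have h3 : (S0 : Matrix.SpecialLinearGroup (Fin 2) (ZMod 3)).1 1 0 = 1 := rfl
  have h4 : (S0 : Matrix.SpecialLinearGroup (Fin 2) (ZMod 3)).1 1 1 = 0 := rfl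
  rw [h1, h2, h3, h4]
  simp only [map_zero, map_neg, map_one, zero_smul, neg_smul, one_smul, zero_add, add_zero]
  have h5 : x * (N * x + x * N) = x := by rw [hsum, mul_one]
  rw [mul_add, ← mul_assoc, ← mul_assoc, hx, neg_mul, one_mul] at h5
  rw [add_comm]
  exact h5

theorem sl23Hom_T : sl23Hom N x hN hx hNx hsum T0 = 1 + N := by
  rw [sl23Hom_apply]
  unfold sl23Fun
  have h1 : (T0 : Matrix.SpecialLinearGroup (Fin 2) (ZMod 3)).1 0 0 = 1 := rfl
  have h2 : (T0 : Matrix.SpecialLinearGroup (Fin 2) (ZMod 3)).1 0 1 = 1 := rfl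
  have h3 : (T0 : Matrix.SpecialLinearGroup (Fin 2) (ZMod 3)).1 1 0 = 0 := rfl
  have h4 : (T0 : Matrix.SpecialLinearGroup (Fin 2) (ZMod 3)).1 1 1 = 1 := rfl
  rw [h1, h2, h3, h4, map_zero, map_one, zero_smul, one_smul, one_smul, one_smul, add_zero,
    ← hsum]
  abel

theorem sl23Hom_eq_one (hN0 : N ≠ 0) (M : Matrix.SpecialLinearGroup (Fin 2) (ZMod 3))
    (hM : sl23Hom N x hN hx hNx hsum M = 1) : M = 1 := by
  rw [sl23Hom_apply] at hM
  unfold sl23Fun at hM
  rw [← hsum] at hM
  obtain ⟨ha, hb, hc, hd⟩ := units_coeff (matUnits_of N x hN hx hNx) hN0 _ _ _ _ hM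
  have hinj : Function.Injective (c3 (K := K)) := RingHom.injective _
  have h00 : M.1 0 0 = 1 := hinj (by rw [map_one]; exact ha)
  have h01 : M.1 0 1 = 0 := hinj (by rw [map_zero]; exact hb)
  have h10 : M.1 1 0 = 0 := hinj (by rw [map_zero]; exact hc)
  have h11 : M.1 1 1 = 1 := hinj (by rw [map_one]; exact hd)
  apply Subtype.ext
  rw [Matrix.SpecialLinearGroup.coe_one]
  ext i j
  fin_cases i <;> fin_cases j
  · simpa using h00
  · simpa using h01
  · simpa using h10
  · simpa using h11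

end sl23

section embed

variable {K : Type v} [Field K]

theorem mat2_anticomm_trace (A B : Matrix (Fin 2) (Fin 2) K) (hA : A.trace = 0)
    (hB : B.trace = 0) : A * B + B * A = (A * B).trace • (1 : Matrix (Fin 2) (Fin 2) K) := by
  rw [Matrix.trace_fin_two] at hA hB
  have hA' : A 1 1 = -A 0 0 := by linear_combination hA
  have hB' : B 1 1 = -B 0 0 := by linear_combination hB
  ext i j
  fin_cases i <;> fin_cases j
  · simp only [Fin.zero_eta, Fin.isValue, Matrix.add_apply, Matrix.mul_apply, Fin.sum_univ_two,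
      Matrix.smul_apply, Matrix.trace_fin_two, Matrix.one_apply_eq, smul_eq_mul, hA', hB']
    ring
  · simp only [Fin.zero_eta, Fin.isValue, Fin.mk_one, Matrix.add_apply, Matrix.mul_apply,
      Fin.sum_univ_two, Matrix.smul_apply, Matrix.trace_fin_two, smul_eq_mul, hA', hB', ne_eq,
      zero_ne_one, not_false_eq_true, Matrix.one_apply_ne]
    ring
  · simp only [Fin.zero_eta, Fin.isValue, Fin.mk_one, Matrix.add_apply, Matrix.mul_apply,
      Fin.sum_univ_two, Matrix.smul_apply, Matrix.trace_fin_two, smul_eq_mul, hA', hB', ne_eq,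
      one_ne_zero, not_false_eq_true, Matrix.one_apply_ne]
    ring
  · simp only [Fin.isValue, Fin.mk_one, Matrix.add_apply, Matrix.mul_apply, Fin.sum_univ_two,
      Matrix.smul_apply, Matrix.trace_fin_two, Matrix.one_apply_eq, smul_eq_mul, hA', hB']
    ring

variable [CharP K 3]

/-- **The `SL₂(3)`-configuration yields a copy of `SL₂(3)`.** -/
theorem exists_sl23_embedding {X : Type u} [Group X] (φ : X →* Matrix (Fin 2) (Fin 2) K)
    (hinj : Function.Injective φ) (hdet : ∀ g, (φ g).det = 1) (hcfg : Cfg φ) :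
    ∃ θ : Matrix.SpecialLinearGroup (Fin 2) (ZMod 3) →* X, Function.Injective θ := by
  obtain ⟨x, u, hx, hu, hu1, hanti⟩ := hcfg
  set N := φ u - 1 with hNdef
  set a := φ x with hadef
  have hN0 : N ≠ 0 := by
    intro h
    apply hu1
    apply hinj
    rw [map_one]
    exact sub_eq_zero.mp h
  have hU : φ u = 1 + N := by rw [hNdef]; abel
  have hUinv : φ u⁻¹ = 1 - N := by
    have h1 : φ u * (1 - N) = 1 := by
      rw [hU, mul_sub, mul_one, add_mul, one_mul, hu]; abel
    have h2 : φ u⁻¹ * φ u = 1 := by rw [← map_mul, inv_mul_cancel, map_one]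
    calc φ u⁻¹ = φ u⁻¹ * (φ u * (1 - N)) := by rw [h1, mul_one]
      _ = 1 - N := by rw [← mul_assoc, h2, one_mul]
  have htrN : N.trace = 0 := (mat2_trace_det_of_sq_zero N hu).1
  have htra : a.trace = 0 := by
    have hc := mat2_cayley a
    rw [hx, hdet x, one_smul] at hc
    have h1 : a.trace • a = 0 := by
      rw [sub_eq_iff_eq_add.mp hc.symm]; simp
    rcases smul_eq_zero.mp h1 with h | h
    · exact h
    · exfalso
      rw [h, mul_zero] at hx
      have h00 := congrFun (congrFun hx 0) 0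
      simp at h00
  set c := (a * N).trace with hcdef
  have hsand : N * a * N = c • N := mat2_sandwich N a hu
  have hanti2 : a * N + N * a = c • (1 : Matrix (Fin 2) (Fin 2) K) :=
    mat2_anticomm_trace a N htra htrN
  have hy : φ (u * x * u⁻¹) = a + N * a - a * N - c • N := by
    rw [map_mul, map_mul, hU, hUinv, ← hsand]
    noncomm_ring
  have h3 : (3 : K) = 0 := by
    have := CharP.cast_eq_zero K 3
    exact_mod_cast this
  have hcc : c * c = 1 := by
    rw [hy] at hanti
    have hD1 : a * (c • N) = c • (a * N) := mul_smul_comm c a N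
    have hD2 : (c • N) * a = c • (N * a) := smul_mul_assoc c N a
    generalize c • N = D at hanti hD1 hD2
    have e : a * (a + N * a - a * N - D) + (a + N * a - a * N - D) * a
        = (a * a + a * a) + (N * (a * a) - (a * a) * N) - (a * D + D * a) := by noncomm_ring
    rw [hanti, neg_add_cancel, hx, hD1, hD2, ← smul_add, hanti2, smul_smul] at e
    have h00 := congrFun (congrFun e 0) 0
    simp only [Matrix.zero_apply, Matrix.add_apply, Matrix.sub_apply, Matrix.neg_apply,
      Matrix.one_apply_eq, Matrix.smul_apply, Matrix.mul_apply, Fin.sum_univ_two, smul_eq_mul,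
      mul_neg, mul_one, neg_mul, one_mul] at h00
    linear_combination h00 - h3
  have hx' : (c • a) * (c • a) = -1 := by rw [smul_mul_smul_comm, hcc, hx, one_smul]
  have hNx' : N * (c • a) * N = N := by
    rw [mul_smul_comm, smul_mul_assoc, hsand, smul_smul, hcc, one_smul]
  have hsum' : N * (c • a) + (c • a) * N = 1 := by
    rw [mul_smul_comm, smul_mul_assoc, ← smul_add, add_comm, hanti2, smul_smul, hcc, one_smul]
  have hxr : ∃ g : X, φ g = c • a := by
    have h5 : (c - 1) * (c + 1) = 0 := by linear_combination hcc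
    rcases mul_eq_zero.mp h5 with h | h
    · exact ⟨x, by rw [sub_eq_zero.mp h, one_smul]⟩
    · refine ⟨x⁻¹, ?_⟩
      rw [eq_neg_of_add_eq_zero_left h, neg_smul, one_smul]
      have h1 : a * (-a) = 1 := by rw [mul_neg, hx, neg_neg]
      have h2 : φ x⁻¹ * a = 1 := by rw [hadef, ← map_mul, inv_mul_cancel, map_one]
      calc φ x⁻¹ = φ x⁻¹ * (a * (-a)) := by rw [h1, mul_one]
        _ = -a := by rw [← mul_assoc, h2, one_mul]
  set θ₀ := sl23Hom N (c • a) hu hx' hNx' hsum' with hθ₀
  have hrange : ∀ M : Matrix.SpecialLinearGroup (Fin 2) (ZMod 3), ∃ g : X, φ g = θ₀ M := by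
    intro M
    have hM : M ∈ Subgroup.closure
        ({S0, T0} : Set (Matrix.SpecialLinearGroup (Fin 2) (ZMod 3))) := by
      rw [sl23_closure]; trivial
    induction hM using Subgroup.closure_induction with
    | mem z hz =>
      rcases hz with rfl | hz
      · obtain ⟨g, hg⟩ := hxr
        exact ⟨g, by rw [hg, hθ₀, sl23Hom_S]⟩
      · rw [Set.mem_singleton_iff.mp hz]
        exact ⟨u, by rw [hθ₀, sl23Hom_T, hU]⟩
    | one => exact ⟨1, by rw [map_one, map_one]⟩
    | mul A B _ _ hA hB =>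
      obtain ⟨g, hg⟩ := hA
      obtain ⟨h, hh⟩ := hB
      exact ⟨g * h, by rw [map_mul, map_mul, hg, hh]⟩
    | inv A _ hA =>
      obtain ⟨g, hg⟩ := hA
      refine ⟨g⁻¹, ?_⟩
      have h1 : φ g * φ g⁻¹ = 1 := by rw [← map_mul, mul_inv_cancel, map_one]
      have h2 : θ₀ A⁻¹ * θ₀ A = 1 := by rw [← map_mul, inv_mul_cancel, map_one]
      calc φ g⁻¹ = (θ₀ A⁻¹ * θ₀ A) * φ g⁻¹ := by rw [h2, one_mul]
        _ = θ₀ A⁻¹ * (φ g * φ g⁻¹) := by rw [mul_assoc, hg]
        _ = θ₀ A⁻¹ := by rw [h1, mul_one]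
  choose f hf using hrange
  let θ : Matrix.SpecialLinearGroup (Fin 2) (ZMod 3) →* X :=
    { toFun := f
      map_one' := hinj (by rw [hf, map_one, map_one])
      map_mul' := fun A B => hinj (by rw [hf, map_mul, map_mul, hf, hf]) }
  refine ⟨θ, (injective_iff_map_eq_one θ).mpr ?_⟩
  intro M hM
  have h1 : φ (f M) = 1 := by
    have : f M = 1 := hM
    rw [this, map_one]
  rw [hf] at h1
  exact sl23Hom_eq_one N (c • a) hu hx' hNx' hsum' hN0 M h1

end embed

end Cfsg.Agent.H2
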