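import Mathlib
import Cfsg.Agent.H24.QuadGroup
import Cfsg.Agent.H2.SL23Embed
import Cfsg.Agent.H14.PSolv
import Cfsg.Agent.H73.PSolv

/-!
# Quadratic action of `p`-solvable groups (`p` odd)

`p`-solvable analogues of helper24's `quad_pg` / `quad_normal` / `quad_normal_group`
(`Cfsg.Agent.H24.Quad`): in a finite `p`-solvable group acting on a finite `𝔽_p`-module, an
element acting quadratically lies in a normal subgroup acting as a `p`-group, unless `p = 3` and
the group has a section isomorphic to `SL₂(3)` (`Inv23`).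
-/

set_option autoImplicit false

namespace Cfsg.Agent.H2

open Cfsg.Agent.H24.Quad TensorProduct

open scoped commutatorElement

universe u v w

/-- `Γ` has a subgroup mapping onto `SL₂(3)`. -/
def Inv23 (Γ : Type*) [Group Γ] : Prop :=
  ∃ (K : Subgroup Γ) (f : K →* Matrix.SpecialLinearGroup (Fin 2) (ZMod 3)), Function.Surjective f

theorem inv23_of_embedding {X : Type*} [Group X]
    (θ : Matrix.SpecialLinearGroup (Fin 2) (ZMod 3) →* X) (hθ : Function.Injective θ) :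
    Inv23 X :=
  ⟨θ.range, (MonoidHom.ofInjective hθ).symm.toMonoidHom, (MonoidHom.ofInjective hθ).symm.surjective⟩

theorem inv23_of_surjective {Δ X : Type*} [Group Δ] [Group X] (ψ : Δ →* X)
    (hψ : Function.Surjective ψ) (h : Inv23 X) : Inv23 Δ := by
  obtain ⟨K, f, hf⟩ := h
  exact ⟨K.comap ψ, f.comp (ψ.subgroupComap K),
    hf.comp (ψ.subgroupComap_surjective_of_surjective K hψ)⟩

theorem inv23_of_injective {Δ Γ : Type*} [Group Δ] [Group Γ] (ι : Δ →* Γ)
    (hι : Function.Injective ι) (h : Inv23 Δ) : Inv23 Γ := by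
  obtain ⟨K, f, hf⟩ := h
  exact ⟨K.map ι, f.comp (K.equivMapOfInjective ι hι).symm.toMonoidHom,
    hf.comp (K.equivMapOfInjective ι hι).symm.surjective⟩

theorem section_of_surj {G : Type*} [Group G] {S : Type*} [Group S] (K : Subgroup G)
    (f : K →* S) (hf : Function.Surjective f) :
    ∃ (L : Subgroup G) (hL : (L.subgroupOf K).Normal), Nonempty ((K ⧸ L.subgroupOf K) ≃* S) := by
  have key : ∀ N : Subgroup K, N = f.ker → ∃ hN : N.Normal, Nonempty ((K ⧸ N) ≃* S) := by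
    rintro N rfl
    exact ⟨inferInstance, ⟨QuotientGroup.quotientKerEquivOfSurjective f hf⟩⟩
  refine ⟨f.ker.map K.subtype, ?_⟩
  have h : (f.ker.map K.subtype).subgroupOf K = f.ker :=
    Subgroup.comap_map_eq_self_of_injective (Subgroup.subtype_injective K) _
  exact key _ h

/-- From `Inv23` of a subgroup to a section of the ambient group. -/
theorem section_of_inv23 {G : Type*} [Group G] (H : Subgroup G) (h : Inv23 ↥H) :
    ∃ (K L : Subgroup G) (hL : (L.subgroupOf K).Normal), K ≤ H ∧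
      Nonempty ((K ⧸ L.subgroupOf K) ≃* Matrix.SpecialLinearGroup (Fin 2) (ZMod 3)) := by
  obtain ⟨K₀, f₀, hf₀⟩ := h
  obtain ⟨L, hL, hiso⟩ := section_of_surj (K₀.map H.subtype)
    (f₀.comp (K₀.equivMapOfInjective H.subtype (Subgroup.subtype_injective H)).symm.toMonoidHom)
    (hf₀.comp (MulEquiv.surjective _))
  exact ⟨K₀.map H.subtype, L, hL, Subgroup.map_subtype_le _, hiso⟩

section Final

variable {K : Type u} [Field K] [Fintype K] {p : ℕ} [Fact p.Prime] [CharP K p]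

/-- `p`-solvable version of `Cfsg.Agent.H24.Quad.sl2_pg`. -/
theorem sl2_pg_psolv (hp2 : p ≠ 2) {Γ : Type w} [Group Γ] [Finite Γ] {x y : Γ}
    (hgen : Subgroup.closure {x, y} = ⊤) (φ : Γ →* Matrix.SpecialLinearGroup (Fin 2) K)
    (hx00 : (φ x).1 0 0 = 1) (hx10 : (φ x).1 1 0 = 0) (hy01 : (φ y).1 0 1 = 0)
    (hy11 : (φ y).1 1 1 = 1) (hsol : Cfsg.IsPSolvable p Γ) : PG p φ ∨ (p = 3 ∧ Inv23 Γ) := by
  have hψ : Function.Surjective φ.rangeRestrict := φ.rangeRestrict_surjective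
  have hsolX : Cfsg.IsPSolvable p φ.range :=
    Cfsg.Agent.H14.isPSolvable_of_surjective p φ.rangeRestrict hψ hsol
  let coe : Matrix.SpecialLinearGroup (Fin 2) K →* Matrix (Fin 2) (Fin 2) K :=
    { toFun := fun g => g.1
      map_one' := rfl
      map_mul' := fun _ _ => rfl }
  let φ' : φ.range →* Matrix (Fin 2) (Fin 2) K := coe.comp φ.range.subtype
  have hinj : Function.Injective φ' := fun a b h => Subtype.ext (Subtype.ext h)
  have hdet : ∀ g, (φ' g).det = 1 := fun g => g.1.2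
  rcases psolv_sl2 p hp2 (Nat.card φ.range) φ.range le_rfl hsolX φ' hinj hdet with hc | ⟨h3, hcfg⟩
  · left
    obtain ⟨P⟩ : Nonempty (Sylow p φ.range) := inferInstance
    have hPn := hc P
    have hpel : ∀ g : φ.range, g ^ p = 1 → g ∈ (P : Subgroup φ.range) := by
      intro g hg
      have hZ : IsPGroup p (Subgroup.zpowers g) := isPGroup_zpowers_of_pow_eq_one hg
      obtain ⟨Q, hQ⟩ := hZ.exists_le_sylow
      obtain ⟨h, rfl⟩ := MulAction.exists_smul_eq φ.range P Q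
      haveI := hPn
      rw [Sylow.smul_eq_of_normal] at hQ
      exact hQ (Subgroup.mem_zpowers g)
    have hall : ∀ g, φ.rangeRestrict g ∈ (P : Subgroup φ.range) := by
      refine closure_pair_induction hgen (by rw [map_one]; exact Subgroup.one_mem _) ?_ ?_ ?_ ?_
      · apply hpel
        exact Subtype.ext (pow_of_sq (upper_sq hx00 hx10))
      · apply hpel
        exact Subtype.ext (pow_of_sq (lower_sq hy01 hy11))
      · intro g h hg hh
        rw [map_mul]
        exact Subgroup.mul_mem _ hg hh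
      · intro g hg
        rw [map_inv]
        exact Subgroup.inv_mem _ hg
    intro g
    obtain ⟨k, hk⟩ := P.isPGroup' ⟨φ.rangeRestrict g, hall g⟩
    refine ⟨k, ?_⟩
    have h1 := congrArg (fun t : (P : Subgroup φ.range) =>
      ((t : φ.range) : Matrix.SpecialLinearGroup (Fin 2) K)) hk
    simpa using h1
  · right
    subst h3
    obtain ⟨θ, hθ⟩ := exists_sl23_embedding φ' hinj hdet hcfg
    exact ⟨rfl, inv23_of_surjective φ.rangeRestrict hψ (inv23_of_embedding θ hθ)⟩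

end Final

variable {p : ℕ} [Fact p.Prime]

/-- `p`-solvable version of `Cfsg.Agent.H24.Quad.quad_pg`. -/
theorem quad_pg_psolv (hp2 : p ≠ 2) {V : Type v} [AddCommGroup V] [Module (ZMod p) V] [Finite V]
    {Γ : Type w} [Group Γ] [Finite Γ] {x y : Γ} (hgen : Subgroup.closure {x, y} = ⊤)
    (ρ : Γ →* Module.End (ZMod p) V) (hx : (ρ x - 1) ^ 2 = 0) (hy : (ρ y - 1) ^ 2 = 0)
    (hsol : Cfsg.IsPSolvable p Γ) : PG p ρ ∨ (p = 3 ∧ Inv23 Γ) := by
  have hp : p.Prime := Fact.out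
  have hN0 : orderOf (x * y) ≠ 0 := (orderOf_pos (x * y)).ne'
  obtain ⟨e, k, hk, hN⟩ := Nat.exists_eq_pow_mul_and_not_dvd hN0 p hp.ne_one
  have hk0 : k ≠ 0 := by
    rintro rfl
    exact hk (dvd_zero p)
  have hcop : Nat.Coprime p k := (Nat.Prime.coprime_iff_not_dvd hp).mpr hk
  have hn0 : Nat.totient k ≠ 0 := (Nat.totient_pos.mpr (Nat.pos_of_ne_zero hk0)).ne'
  let K := GaloisField p (Nat.totient k)
  have hfinK : Finite K := inferInstance
  let _instK : Fintype K := Fintype.ofFinite K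
  have hcard : Fintype.card K = p ^ Nat.totient k := by
    rw [← Nat.card_eq_fintype_card]; exact GaloisField.card p _ hn0
  have hkdvd : k ∣ Fintype.card K - 1 := by
    rw [hcard]
    exact (Nat.modEq_iff_dvd' (Nat.one_le_pow _ _ hp.pos)).mp (Nat.ModEq.pow_totient hcop).symm
  let B : Module.End (ZMod p) V →* Module.End K (K ⊗[ZMod p] V) :=
    (Module.End.baseChangeHom (ZMod p) K V : Module.End (ZMod p) V →* Module.End K (K ⊗[ZMod p] V))
  have hB : ∀ f : Module.End (ZMod p) V, B f = Module.End.baseChangeHom (ZMod p) K V f :=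
    fun f => rfl
  have hBsq : ∀ f : Module.End (ZMod p) V, (f - 1) ^ 2 = 0 → (B f - 1) ^ 2 = 0 := by
    intro f hf
    rw [hB, ← map_one (Module.End.baseChangeHom (ZMod p) K V),
      ← map_sub (Module.End.baseChangeHom (ZMod p) K V),
      ← map_pow (Module.End.baseChangeHom (ZMod p) K V), hf, map_zero]
  have hBinj : ∀ f : Module.End (ZMod p) V, B f = 1 → f = 1 := by
    intro f hf
    ext v
    have h1 := congrArg (fun t => t ((1 : K) ⊗ₜ[ZMod p] v)) hf
    have h2 : (1 : K) ⊗ₜ[ZMod p] f v = (1 : K) ⊗ₜ[ZMod p] v := by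
      have h3 : (LinearMap.baseChange K f) ((1 : K) ⊗ₜ[ZMod p] v) = (1 : K) ⊗ₜ[ZMod p] v := h1
      rw [LinearMap.baseChange_tmul] at h3
      exact h3
    exact Module.FaithfullyFlat.tensorProduct_mk_injective (A := ZMod p) (B := K) V h2
  let ρK : Γ →* Module.End K (K ⊗[ZMod p] V) := B.comp ρ
  have hord : ∃ e : ℕ, ρK (x * y) ^ (p ^ e * (Fintype.card K - 1)) = 1 := by
    refine ⟨e, ?_⟩
    rw [← map_pow]
    have : (x * y) ^ (p ^ e * (Fintype.card K - 1)) = 1 := by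
      apply orderOf_dvd_iff_pow_eq_one.mp
      rw [hN]; exact Nat.mul_dvd_mul_left _ hkdvd
    rw [this, map_one]
  rcases main_aux (K := K) (p := p) hgen (Module.finrank K (K ⊗[ZMod p] V)) (K ⊗[ZMod p] V) rfl
      ρK (hBsq _ hx) (hBsq _ hy) hord with h | ⟨φ, h1, h2, h3, h4, hφ⟩
  · left
    intro g
    obtain ⟨j, hj⟩ := h g
    refine ⟨j, hBinj _ ?_⟩
    rw [map_pow]
    exact hj
  · rcases sl2_pg_psolv hp2 hgen φ h1 h2 h3 h4 hsol with h | h
    · exact absurd h hφ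
    · right; exact h

/-- `p`-solvable version of `Cfsg.Agent.H24.Quad.quad_normal`. -/
theorem quad_normal_psolv (hp2 : p ≠ 2) {V : Type v} [AddCommGroup V] [Module (ZMod p) V]
    [Finite V] {Γ : Type w} [Group Γ] [Finite Γ] (ρ : Γ →* Module.End (ZMod p) V) (a : Γ)
    (ha : (ρ a - 1) ^ 2 = 0) (hsol : Cfsg.IsPSolvable p Γ) :
    (∃ N : Subgroup Γ, N.Normal ∧ a ∈ N ∧ ∀ g ∈ N, ∃ k : ℕ, ρ g ^ p ^ k = 1) ∨
      (p = 3 ∧ Inv23 Γ) := by
  by_cases h23 : p = 3 ∧ Inv23 Γ
  · exact Or.inr h23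
  left
  have hkn : ρ.ker.Normal := ρ.normal_ker
  have hmk : ∀ (g : Γ) (n : ℕ), (QuotientGroup.mk' ρ.ker g) ^ n = 1 ↔ ρ g ^ n = 1 := by
    intro g n
    rw [← map_pow, QuotientGroup.mk'_apply, QuotientGroup.eq_one_iff, MonoidHom.mem_ker, map_pow]
  have hX : IsPGroup p (Subgroup.zpowers (QuotientGroup.mk' ρ.ker a)) :=
    isPGroup_zpowers_of_pow_eq_one ((hmk a p).mpr (pow_char_of_sq_zero (ZMod p) p ha))
  have hBS : ∀ gb : Γ ⧸ ρ.ker, IsPGroup p ↥(Subgroup.zpowers (QuotientGroup.mk' ρ.ker a) ⊔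
      (Subgroup.zpowers (QuotientGroup.mk' ρ.ker a)).map (MulAut.conj gb).toMonoidHom) := by
    intro gb
    obtain ⟨g, rfl⟩ := QuotientGroup.mk'_surjective ρ.ker gb
    have haH : a ∈ Subgroup.closure ({a, g * a * g⁻¹} : Set Γ) := Subgroup.subset_closure (by simp)
    have hbH : g * a * g⁻¹ ∈ Subgroup.closure ({a, g * a * g⁻¹} : Set Γ) :=
      Subgroup.subset_closure (by simp)
    have hle : Subgroup.zpowers (QuotientGroup.mk' ρ.ker a) ⊔
        (Subgroup.zpowers (QuotientGroup.mk' ρ.ker a)).map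
          (MulAut.conj (QuotientGroup.mk' ρ.ker g)).toMonoidHom
        ≤ (Subgroup.closure ({a, g * a * g⁻¹} : Set Γ)).map (QuotientGroup.mk' ρ.ker) := by
      refine sup_le ?_ ?_
      · rw [Subgroup.zpowers_le]; exact ⟨a, haH, rfl⟩
      · rw [MonoidHom.map_zpowers, Subgroup.zpowers_le]
        refine ⟨g * a * g⁻¹, hbH, ?_⟩
        simp
    have hgen0 : Subgroup.closure {(⟨a, haH⟩ : Subgroup.closure ({a, g * a * g⁻¹} : Set Γ)),
        ⟨g * a * g⁻¹, hbH⟩} = ⊤ := by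
      have := Subgroup.closure_closure_coe_preimage (k := ({a, g * a * g⁻¹} : Set Γ))
      convert this using 2
      ext z
      simp [Subtype.ext_iff]
    have hpg : PG p (ρ.comp (Subgroup.subtype (Subgroup.closure ({a, g * a * g⁻¹} : Set Γ)))) := by
      rcases quad_pg_psolv hp2 hgen0 (ρ.comp (Subgroup.subtype _)) ha (conj_sq_zero ρ ha g)
        (Cfsg.Agent.H73.isPSolvable_subgroup hsol _) with h | ⟨h3, hinv⟩
      · exact h
      · exact absurd ⟨h3, inv23_of_injective (Subgroup.subtype _)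
          (Subgroup.subtype_injective _) hinv⟩ h23
    intro z
    obtain ⟨h, hh, hz⟩ := hle z.2
    obtain ⟨k, hk⟩ := hpg ⟨h, hh⟩
    refine ⟨k, Subtype.ext ?_⟩
    rw [Subgroup.coe_pow, Subgroup.coe_one, ← hz]
    exact (hmk h _).mpr hk
  obtain ⟨Nb, hN, hNp, hXN⟩ := Cfsg.Agent.H5.baer_suzuki _ hX hBS
  refine ⟨Nb.comap (QuotientGroup.mk' ρ.ker), hN.comap _,
    hXN (Subgroup.mem_zpowers _), ?_⟩
  intro g hg
  obtain ⟨k, hk⟩ := hNp ⟨QuotientGroup.mk' ρ.ker g, hg⟩
  exact ⟨k, (hmk g _).mp (congrArg Subtype.val hk)⟩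

/-- `p`-solvable version of `Cfsg.Agent.H24.Quad.quad_normal_group`. -/
theorem quad_normal_group_psolv {G : Type u} [Group G] (hp2 : p ≠ 2) (V : Subgroup G)
    (hV : Cfsg.IsElementaryAbelian p V) [Finite V] {Γ : Type w} [Group Γ] [Finite Γ] (ι : Γ →* G)
    (hι : ∀ γ, ι γ ∈ Subgroup.normalizer (V : Set G)) (a : Γ)
    (hq : ⁅⁅V, Subgroup.zpowers (ι a)⁆, Subgroup.zpowers (ι a)⁆ = ⊥)
    (hsol : Cfsg.IsPSolvable p Γ) :
    (∃ N : Subgroup Γ, N.Normal ∧ a ∈ N ∧
      ∀ g ∈ N, ∃ k : ℕ, ι g ^ p ^ k ∈ Subgroup.centralizer (V : Set G)) ∨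
      (p = 3 ∧ Inv23 Γ) := by
  obtain ⟨M, iM, iMod, iFin, e, ρ, he, hρ⟩ := exists_conj_rep V hV ι hι
  rcases quad_normal_psolv hp2 ρ a (rep_sq_zero he hρ a hq) hsol with ⟨N, hN, haN, hNp⟩ | h
  · left
    refine ⟨N, hN, haN, fun g hg => ?_⟩
    obtain ⟨k, hk⟩ := hNp g hg
    exact ⟨k, rep_pow_mem_centralizer hρ g _ hk⟩
  · exact Or.inr h

end Cfsg.Agent.H2
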