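import Mathlib

/-!
# Sakuma's theorem: the real algebra (helper2)

From the polynomial relations between the inner products `l1, …, l6` of a dihedral configuration
of Majorana axes (and the auxiliary pairing `om`), one of `l1, …, l6` equals `1`.
-/

set_option autoImplicit false
set_option linter.unusedVariables false

namespace Cfsg.Agent.H2.Sak

set_option maxHeartbeats 4000000 in
theorem sak_alg (l1 l2 l3 l4 l5 l6 om : ℝ)
    (E1 :
      (7 / 32 * (5 / 32 * (31 / 32 * l1 - 1 / 32) + (3 / 4 * l1 - 25 / 1024) * l1 + (7 / 2048) *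
        (1 + l2)) + (3 / 4 * l1 - 25 / 1024) * (31 / 32 * l1 - 1 / 32) + 2 * (7 / 2048) * (31 /
        32 * l1 - 1 / 32)) = (7 / 6 * l1 ^ 2 - 7 / 384 * l1 + 7 / 1536 * l2 - 7 / 98304) * l1 +
        (49 / 768 * l1 - 245 / 196608) * (1 + l2) + (49 / 196608) * (l1 + l3) + (-(5 / 12) * l1 -
        13 / 1536) * (31 / 32 * l1 - 1 / 32) + (-(7 / 1536)) * (15 / 16 * l1 + (l2 - 1) / 32) +
        (7 / 2048) * (31 / 32 * l2 - 1 / 32))
    (E2 :
      (7 / 32 * (5 / 32 * (31 / 32 * l1 - 1 / 32) + (3 / 4 * l1 - 25 / 1024) * l1 + (7 / 2048) *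
        (1 + l2)) + (3 / 4 * l1 - 25 / 1024) * (31 / 32 * l1 - 1 / 32) + 2 * (7 / 2048) * (31 /
        32 * l1 - 1 / 32)) = (7 / 6 * l1 ^ 2 - 7 / 384 * l1 + 7 / 1536 * l2 - 7 / 98304) * l2 +
        (49 / 768 * l1 - 245 / 196608) * (l1 + l3) + (49 / 196608) * (1 + l4) + (-(5 / 12) * l1 -
        13 / 1536) * (31 / 32 * l1 - 1 / 32) + (-(7 / 1536)) * (31 / 32 * l2 - 1 / 32) + (7 /
        2048) * (15 / 16 * l1 + (l2 - 1) / 32))
    (E3 :
      (7 / 32 * (5 / 32 * (31 / 32 * l1 - 1 / 32) + (3 / 4 * l1 - 25 / 1024) * l1 + (7 / 2048) *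
        (1 + l2)) + (3 / 4 * l1 - 25 / 1024) * (31 / 32 * l1 - 1 / 32) + 2 * (7 / 2048) * (31 /
        32 * l1 - 1 / 32)) = (7 / 6 * l1 ^ 2 - 7 / 384 * l1 + 7 / 1536 * l2 - 7 / 98304) * l3 +
        (49 / 768 * l1 - 245 / 196608) * (l2 + l4) + (49 / 196608) * (l1 + l5) + (-(5 / 12) * l1
        - 13 / 1536) * (31 / 32 * l1 - 1 / 32) + (-(7 / 1536)) * (15 / 16 * l1 + (l2 - 1) / 32) +
        (7 / 2048) * (31 / 32 * l2 - 1 / 32))
    (E4 :
      (7 / 32 * (5 / 32 * (31 / 32 * l1 - 1 / 32) + (3 / 4 * l1 - 25 / 1024) * l1 + (7 / 2048) *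
        (1 + l2)) + (3 / 4 * l1 - 25 / 1024) * (31 / 32 * l1 - 1 / 32) + 2 * (7 / 2048) * (31 /
        32 * l1 - 1 / 32)) = (7 / 6 * l1 ^ 2 - 7 / 384 * l1 + 7 / 1536 * l2 - 7 / 98304) * l4 +
        (49 / 768 * l1 - 245 / 196608) * (l3 + l5) + (49 / 196608) * (l2 + l6) + (-(5 / 12) * l1
        - 13 / 1536) * (31 / 32 * l1 - 1 / 32) + (-(7 / 1536)) * (31 / 32 * l2 - 1 / 32) + (7 /
        2048) * (15 / 16 * l1 + (l2 - 1) / 32))
    (F0 :
      7 / 32 * (15 / 16 * l1 + (l2 - 1) / 32) + (3 / 4 * l2 - 25 / 1024) * l3 + (7 / 2048) * (l1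
        + l5) = (7 / 96) * (15 / 16 * l1 + (l2 - 1) / 32) + (7 / 6144) * (l1 + l5) + (32 / 3 * l1
        - 19 / 48) * (31 / 32 * l1 - 1 / 32) + (1 / 6 * l1 - 19 / 3072) * (l2 + l4) + (-(32 / 3)
        * l1 ^ 2 + 5 / 3 * l1 - l2 / 24 - 127 / 3072) * l3)
    (Ga :
      7 / 32 * om + (3 / 4 * l2 - 25 / 1024) * (15 / 16 * l1 + (l2 - 1) / 32) + 2 * (7 / 2048) *
        (15 / 16 * l1 + (l2 - 1) / 32) = (7 / 96) * (5 / 32 * (31 / 32 * l2 - 1 / 32) + (3 / 4 *
        l2 - 25 / 1024) * l2 + (7 / 2048) * (1 + l4)) + 2 * (7 / 6144) * (31 / 32 * l2 - 1 / 32)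
        + (32 / 3 * l1 - 19 / 48) * (5 / 32 * (31 / 32 * l1 - 1 / 32) + (3 / 4 * l1 - 25 / 1024)
        * l2 + (7 / 2048) * (l1 + l3)) + 2 * (1 / 6 * l1 - 19 / 3072) * (15 / 16 * l1 + (l2 - 1)
        / 32) + (-(32 / 3) * l1 ^ 2 + 5 / 3 * l1 - l2 / 24 - 127 / 3072) * (31 / 32 * l2 - 1 /
        32))
    (Gb :
      (7 / 6 * l1 ^ 2 - 7 / 384 * l1 + 7 / 1536 * l2 - 7 / 98304) * (15 / 16 * l1 + (l2 - 1) /
        32) + 2 * (49 / 768 * l1 - 245 / 196608) * (31 / 32 * l2 - 1 / 32) + 2 * (49 / 196608) *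
        (15 / 16 * l1 + (l2 - 1) / 32) + (-(5 / 12) * l1 - 13 / 1536) * (5 / 32 * (31 / 32 * l1 -
        1 / 32) + (3 / 4 * l1 - 25 / 1024) * l2 + (7 / 2048) * (l1 + l3)) + (-(7 / 1536)) * om +
        (7 / 2048) * (5 / 32 * (31 / 32 * l2 - 1 / 32) + (3 / 4 * l2 - 25 / 1024) * l2 + (7 /
        2048) * (1 + l4)) = (7 / 6 * l1 ^ 2 - 7 / 384 * l1 + 7 / 1536 * l2 - 7 / 98304) * (31 /
        32 * l2 - 1 / 32) + 2 * (49 / 768 * l1 - 245 / 196608) * (15 / 16 * l1 + (l2 - 1) / 32) +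
        2 * (49 / 196608) * (31 / 32 * l2 - 1 / 32) + (-(5 / 12) * l1 - 13 / 1536) * (5 / 32 *
        (31 / 32 * l1 - 1 / 32) + (3 / 4 * l1 - 25 / 1024) * l2 + (7 / 2048) * (l1 + l3)) + (-(7
        / 1536)) * (5 / 32 * (31 / 32 * l2 - 1 / 32) + (3 / 4 * l2 - 25 / 1024) * l2 + (7 / 2048)
        * (1 + l4)) + (7 / 2048) * om) :
    l1 = 1 ∨ l2 = 1 ∨ l3 = 1 ∨ l4 = 1 ∨ l5 = 1 ∨ l6 = 1 := by
  have hl3 : l3 =
      -(32768 / 7) * l1 ^ 3 + (36864 / 7) * l1 ^ 2 - (1920 / 7) * l1 * l2 - (2169 / 7) * l1 - (33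
        / 7) * l2 + (33 / 7) := by
    linear_combination (-(196608 / 49)) * E1
  subst hl3
  have hl4 : l4 =
      (8388608 / 7) * l1 ^ 4 - (9601024 / 7) * l1 ^ 3 + 65536 * l1 ^ 2 * l2 + 110592 * l1 ^ 2 -
        (640 / 7) * l1 * l2 - (19840 / 7) * l1 - (128 / 7) * l2 ^ 2 - 3 * l2 + (156 / 7) := by
    linear_combination (-(196608 / 49)) * E2
  subst hl4
  have hl5 : l5 =
      -(13958643712 / 49) * l1 ^ 5 + (16273899520 / 49) * l1 ^ 4 - (754974720 / 49) * l1 ^ 3 * l2
        - (1633419264 / 49) * l1 ^ 3 + (12582912 / 49) * l1 ^ 2 * l2 + (8683520 / 7) * l1 ^ 2 +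
        (475136 / 49) * l1 * l2 ^ 2 + (259584 / 49) * l1 * l2 - (137721 / 7) * l1 - (256 / 49) *
        l2 ^ 2 - (5256 / 49) * l2 + (5512 / 49) := by
    linear_combination (-(196608 / 49)) * E3
  subst hl5
  have hl6 : l6 =
      (3298534883328 / 49) * l1 ^ 6 - (3917010173952 / 49) * l1 ^ 5 + (177167400960 / 49) * l1 ^
        4 * l2 + (469317451776 / 49) * l1 ^ 4 - (5511315456 / 49) * l1 ^ 3 * l2 - (22767894528 /
        49) * l1 ^ 3 - (25165824 / 7) * l1 ^ 2 * l2 ^ 2 - (97910784 / 49) * l1 ^ 2 * l2 +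
        (542429184 / 49) * l1 ^ 2 + (2457600 / 49) * l1 * l2 ^ 2 + (5162880 / 49) * l1 * l2 -
        (904320 / 7) * l1 + (16384 / 49) * l2 ^ 3 + (1152 / 49) * l2 ^ 2 - (46500 / 49) * l2 +
        (29013 / 49) := by
    linear_combination (-(196608 / 49)) * E4
  subst hl6
  have hom : om =
      (4096 / 7) * l1 ^ 4 - 656 * l1 ^ 3 + (128 / 7) * l1 ^ 2 * l2 + (366 / 7) * l1 ^ 2 + (277 /
        112) * l1 * l2 - (335 / 256) * l1 - (1 / 16) * l2 ^ 2 + (761 / 14336) * l2 + (135 /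
        14336) := by
    linear_combination ((32 / 7)) * Ga
  subst hom
  have hF :
      (6291456 / 7) * l1 ^ 5 - 1056768 * l1 ^ 4 + (368640 / 7) * l1 ^ 3 * l2 + (805248 / 7) * l1
        ^ 3 - (39072 / 7) * l1 ^ 2 * l2 - (32400 / 7) * l1 ^ 2 + 192 * l1 * l2 ^ 2 + (921 / 4) *
        l1 * l2 + (2193 / 28) * l1 + (27 / 7) * l2 ^ 2 - (6093 / 1792) * l2 - (117 / 256) = 0 := by
    linear_combination (-1) * F0
  have hG :
      -(24576 / 7) * l1 ^ 4 + (27264 / 7) * l1 ^ 3 - (480 / 7) * l1 ^ 2 * l2 - (2160 / 7) * l1 ^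
        2 - (417 / 28) * l1 * l2 + (225 / 28) * l1 - (3 / 14) * l2 ^ 2 + (501 / 1792) * l2 - (117
        / 1792) = 0 := by
    linear_combination (-(6144 / 49)) * Gb
  clear E1 E2 E3 E4 F0 Ga Gb
  have hR : l1 * (l1 - 1) * (l1 - 1 / 8) * (l1 - 13 / 256) * (l1 - 1 / 64) ^ 2 * (l1 - 1 / 32) * (l1 - 3 / 128) * (l1 - 5 / 256) = 0 := by
    linear_combination
      (-(1 / 27525120) * l1 ^ 5 - (307 / 503316480) * l1 ^ 4 - (1 / 1761607680) * l1 ^ 3 * l2 -
        (11961 / 150323855360) * l1 ^ 3 - (7 / 5368709120) * l1 ^ 2 * l2 + (33293 /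
        11544872091648) * l1 ^ 2 + (397 / 28862180229120) * l1 * l2 - (7849 / 369435906932736) *
        l1 + (13 / 123145302310912) * l2 - (507 / 15762598695796736)) * hF +
      (-(1 / 107520) * l1 ^ 6 - (12121 / 27525120) * l1 ^ 5 - (1 / 1966080) * l1 ^ 4 * l2 +
        (138347 / 3523215360) * l1 ^ 4 - (173 / 146800640) * l1 ^ 3 * l2 - (651719 /
        450971566080) * l1 ^ 3 - (359 / 32212254720) * l1 ^ 2 * l2 + (102597 / 3848290697216) *
        l1 ^ 2 + (823 / 2405181685760) * l1 * l2 - (12419 / 61572651155456) * l1 + (117 /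
        61572651155456) * l2 + (507 / 2251799813685248)) * hG
  have hc : l1 = 0 ∨ l1 = 1 ∨ l1 = 1 / 8 ∨ l1 = 13 / 256 ∨ l1 = 1 / 64 ∨ l1 = 1 / 32 ∨ l1 = 3 / 128
      ∨ l1 = 5 / 256 := by
    rcases mul_eq_zero.1 hR with h | h
    · rcases mul_eq_zero.1 h with h | h
      · rcases mul_eq_zero.1 h with h | h
        · rcases mul_eq_zero.1 h with h | h
          · rcases mul_eq_zero.1 h with h | h
            · rcases mul_eq_zero.1 h with h | h
              · rcases mul_eq_zero.1 h with h | h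
                · exact Or.inl h
                · right; left; linarith
              · right; right; left; linarith
            · right; right; right; left; linarith
          · right; right; right; right; left
            have := pow_eq_zero_iff (two_ne_zero) |>.1 h
            linarith
        · right; right; right; right; right; left; linarith
      · right; right; right; right; right; right; left; linarith
    · right; right; right; right; right; right; right; linarith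
  clear hR
  rcases hc with h | h | h | h | h | h | h | h
  · subst h
    have h2 : l2 = 1 := by
      linear_combination ((1792 / 2925)) * hF + ((3584 / 325)) * hG
    right; left; exact h2
  · subst h
    left; rfl
  · subst h
    have h2 : l2 = 1 := by
      linear_combination (-(256 / 77805)) * hF + (-(512 / 1197)) * hG
    right; left; exact h2
  · subst h
    have h2 : l2 = (13 / 256) := by
      linear_combination (-(4096 / 166725)) * hF + (-(260096 / 166725)) * hG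
    subst h2
    right; right; left; norm_num
  · subst h
    have h2 : (l2 - (1 / 64)) * (l2 - (1 / 8)) = 0 := by
      linear_combination (-(14 / 3)) * hG
    rcases mul_eq_zero.1 h2 with h2 | h2
    · have h2 : l2 = (1 / 64) := by linarith
      subst h2
      right; right; left; norm_num
    · have h2 : l2 = (1 / 8) := by linarith
      subst h2
      right; right; right; left; norm_num
  · subst h
    have h2 : l2 = 0 := by
      linear_combination (-(1792 / 20925)) * hF + (-(82432 / 20925)) * hG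
    subst h2
    right; right; right; left; norm_num
  · subst h
    have h2 : l2 = (3 / 128) := by
      linear_combination (-(128 / 585)) * hF + (-(128 / 15)) * hG
    subst h2
    right; right; right; right; left; norm_num
  · subst h
    have h2 : l2 = (13 / 256) := by
      linear_combination (-(28672 / 56475)) * hF + (-(1017856 / 56475)) * hG
    subst h2
    right; right; right; right; right; norm_num

end Cfsg.Agent.H2.Sak
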