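import Mathlib
import Cfsg.Prelude.Def_AxialAlgebras

/-!
# Majorana axes: a working structure (helper2)

`MAx mul B μ a` collects the equational consequences of `IsMajoranaPair mul B μ a` (with
`B a a = 1`) that are used in the proof of Sakuma's theorem: the involution, the `1/32`-eigenvectors
`x - μ x`, the quadratic relation on `μ`-fixed vectors and the Jordan fusion rules at `a`.
-/

set_option autoImplicit false
set_option linter.unusedVariables false
set_option linter.unusedSectionVars false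

namespace Cfsg.Agent.H2.Sak

open Cfsg.Axial

variable {V : Type*} [AddCommGroup V] [Module ℝ V]

/-- The `0`-eigencomponent of a `μ`-fixed vector `y`. -/
def UU (mul : V →ₗ[ℝ] V →ₗ[ℝ] V) (B : LinearMap.BilinForm ℝ V) (a y : V) : V :=
  y - (4 : ℝ) • mul a y + (3 * B a y) • a

/-- The `1/4`-eigencomponent of a `μ`-fixed vector `y`. -/
def WW (mul : V →ₗ[ℝ] V →ₗ[ℝ] V) (B : LinearMap.BilinForm ℝ V) (a y : V) : V :=
  (4 : ℝ) • mul a y - (4 * B a y) • a

/-- Working form of a Majorana axis with its involution. -/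
structure MAx (mul : V →ₗ[ℝ] V →ₗ[ℝ] V) (B : LinearMap.BilinForm ℝ V) (μ : V ≃ₗ[ℝ] V)
    (a : V) : Prop where
  aa : mul a a = a
  nn : B a a = 1
  fix : μ a = a
  mmul : ∀ u v, μ (mul u v) = mul (μ u) (μ v)
  mB : ∀ u v, B (μ u) (μ v) = B u v
  invol : ∀ x, μ (μ x) = x
  anti : ∀ x, mul a (x - μ x) = (1 / 32 : ℝ) • (x - μ x)
  quad : ∀ y, μ y = y → mul a (mul a y) = (1 / 4 : ℝ) • mul a y + (3 / 4 * B a y) • a
  f00 : ∀ y, μ y = y → mul a (mul (UU mul B a y) (UU mul B a y)) = 0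
  f0q : ∀ y, μ y = y → mul a (mul (UU mul B a y) (WW mul B a y)) =
    (1 / 4 : ℝ) • mul (UU mul B a y) (WW mul B a y)
  fqq : ∀ y, μ y = y → mul a (mul (WW mul B a y) (WW mul B a y)) =
    (1 / 4 * B (WW mul B a y) (WW mul B a y)) • a

theorem law00 : monsterLaw (1 / 4 : ℝ) (1 / 32) 0 0 = {0} := by
  unfold monsterLaw; norm_num

theorem law0q : monsterLaw (1 / 4 : ℝ) (1 / 32) 0 (1 / 4) = {1 / 4} := by
  unfold monsterLaw; norm_num

theorem lawqq : monsterLaw (1 / 4 : ℝ) (1 / 32) (1 / 4) (1 / 4) = {1, 0} := by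
  unfold monsterLaw; norm_num

theorem MAx.of_pair {mul : V →ₗ[ℝ] V →ₗ[ℝ] V} {B : LinearMap.BilinForm ℝ V}
    (hV : IsMajoranaAmbient mul B) {μ : V ≃ₗ[ℝ] V} {a : V}
    (h : IsMajoranaPair mul B μ a) (hn : B a a = 1) : MAx mul B μ a := by
  obtain ⟨hcomm, hsym, hpos, hassoc, hnorton⟩ := hV
  obtain ⟨hmul, hB, ⟨⟨hne, haa, htop, hfus⟩, hprim⟩, ⟨hfixp, hneg⟩⟩ := h
  have hE : ∀ (c : ℝ) (x : V), x ∈ eigen mul a c ↔ mul a x = c • x :=
    fun c x => Module.End.mem_eigenspace_iff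
  have hS : eigenSum mul a majoranaSpectrum =
      eigen mul a 1 ⊔ (eigen mul a 0 ⊔ (eigen mul a (1 / 4) ⊔ eigen mul a (1 / 32))) := by
    unfold eigenSum majoranaSpectrum
    rw [iSup_insert, iSup_insert, iSup_insert, iSup_singleton]
  have hS3 : eigenSum mul a ({1, 0, 1 / 4} : Set ℝ) =
      eigen mul a 1 ⊔ (eigen mul a 0 ⊔ eigen mul a (1 / 4)) := by
    unfold eigenSum
    rw [iSup_insert, iSup_insert, iSup_singleton]
  have hdec : ∀ x : V, ∃ c : ℝ, ∃ x0 xq xt : V, mul a x0 = 0 ∧ mul a xq = (1 / 4 : ℝ) • xq ∧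
      mul a xt = (1 / 32 : ℝ) • xt ∧ x = c • a + x0 + xq + xt := by
    intro x
    have hx : x ∈ eigenSum mul a majoranaSpectrum := by rw [htop]; exact Submodule.mem_top
    rw [hS] at hx
    obtain ⟨x1, hx1, r1, hr1, rfl⟩ := Submodule.mem_sup.1 hx
    obtain ⟨x0, hx0, r2, hr2, rfl⟩ := Submodule.mem_sup.1 hr1
    obtain ⟨xq, hxq, xt, hxt, rfl⟩ := Submodule.mem_sup.1 hr2
    rw [hprim] at hx1
    obtain ⟨c, rfl⟩ := Submodule.mem_span_singleton.1 hx1
    refine ⟨c, x0, xq, xt, ?_, (hE _ _).1 hxq, (hE _ _).1 hxt, by abel⟩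
    have h0 := (hE _ _).1 hx0
    rw [h0, zero_smul]
  have hμ1 : ∀ x, mul a x = x → μ x = x := by
    intro x hx
    have hm : x ∈ eigenSum mul a ({1, 0, 1 / 4} : Set ℝ) := by
      rw [hS3]
      exact Submodule.mem_sup_left ((hE _ _).2 (by rw [hx, one_smul]))
    simpa using hfixp x hm
  have hμ0 : ∀ x, mul a x = 0 → μ x = x := by
    intro x hx
    have hm : x ∈ eigenSum mul a ({1, 0, 1 / 4} : Set ℝ) := by
      rw [hS3]
      exact Submodule.mem_sup_right (Submodule.mem_sup_left ((hE _ _).2 (by rw [hx, zero_smul])))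
    simpa using hfixp x hm
  have hμq : ∀ x, mul a x = (1 / 4 : ℝ) • x → μ x = x := by
    intro x hx
    have hm : x ∈ eigenSum mul a ({1, 0, 1 / 4} : Set ℝ) := by
      rw [hS3]
      exact Submodule.mem_sup_right (Submodule.mem_sup_right ((hE _ _).2 hx))
    simpa using hfixp x hm
  have hμt : ∀ x, mul a x = (1 / 32 : ℝ) • x → μ x = -x := by
    intro x hx
    simpa using hneg x ((hE _ _).2 hx)
  have hfix : μ a = a := hμ1 a haa
  have hsa : ∀ x y, B (mul a x) y = B x (mul a y) := by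
    intro x y
    rw [hcomm a x, ← hassoc]
  have hB0 : ∀ x, mul a x = 0 → B a x = 0 := by
    intro x hx
    have h1 : B (mul a a) x = B a (mul a x) := hsa a x
    rw [haa, hx, map_zero] at h1
    exact h1
  have hBq : ∀ x, mul a x = (1 / 4 : ℝ) • x → B a x = 0 := by
    intro x hx
    have h1 : B (mul a a) x = B a (mul a x) := hsa a x
    rw [haa, hx, map_smul, smul_eq_mul] at h1
    linarith
  have hμx : ∀ (c : ℝ) (x0 xq xt : V), mul a x0 = 0 → mul a xq = (1 / 4 : ℝ) • xq →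
      mul a xt = (1 / 32 : ℝ) • xt → μ (c • a + x0 + xq + xt) = c • a + x0 + xq - xt := by
    intro c x0 xq xt h0 hq ht
    rw [map_add, map_add, map_add, map_smul, hfix, hμ0 _ h0, hμq _ hq, hμt _ ht]
    abel
  -- structure of a fixed vector
  have hfixed : ∀ y, μ y = y → ∃ c : ℝ, ∃ y0 yq : V, mul a y0 = 0 ∧ mul a yq = (1 / 4 : ℝ) • yq ∧
      y = c • a + y0 + yq ∧ B a y = c ∧ mul a y = c • a + (1 / 4 : ℝ) • yq ∧
      UU mul B a y = y0 ∧ WW mul B a y = yq := by
    intro y hy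
    obtain ⟨c, y0, yq, yt, h0, hq, ht, rfl⟩ := hdec y
    rw [hμx c y0 yq yt h0 hq ht] at hy
    have hyt : yt = 0 := by
      have h1 : -yt = yt := by
        have h2 : c • a + y0 + yq + -yt = c • a + y0 + yq + yt := by rw [← sub_eq_add_neg]; exact hy
        exact add_left_cancel h2
      have h3 : (2 : ℝ) • yt = 0 := by
        calc (2 : ℝ) • yt = yt + yt := by rw [two_smul]
          _ = -yt + yt := by rw [h1]
          _ = 0 := by abel
      rcases smul_eq_zero.1 h3 with h4 | h4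
      · norm_num at h4
      · exact h4
    subst hyt
    have hy' : c • a + y0 + yq + 0 = c • a + y0 + yq := add_zero _
    have hBy : B a (c • a + y0 + yq) = c := by
      rw [map_add, map_add, map_smul, hn, hB0 _ h0, hBq _ hq]; simp
    have hay : mul a (c • a + y0 + yq) = c • a + (1 / 4 : ℝ) • yq := by
      rw [map_add, map_add, map_smul, haa, h0, hq]; abel
    refine ⟨c, y0, yq, h0, hq, hy', ?_, ?_, ?_, ?_⟩
    · rw [hy']; exact hBy
    · rw [hy']; exact hay
    · unfold UU; rw [hy', hBy, hay]; module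
    · unfold WW; rw [hy', hBy, hay]; module
  have m0 : (0 : ℝ) ∈ majoranaSpectrum := by unfold majoranaSpectrum; simp
  have mq : (1 / 4 : ℝ) ∈ majoranaSpectrum := by unfold majoranaSpectrum; simp
  refine ⟨haa, hn, hfix, hmul, hB, ?_, ?_, ?_, ?_, ?_, ?_⟩
  · intro x
    obtain ⟨c, x0, xq, xt, h0, hq, ht, rfl⟩ := hdec x
    rw [hμx c x0 xq xt h0 hq ht, map_sub, map_add, map_add, map_smul, hfix, hμ0 _ h0, hμq _ hq,
      hμt _ ht]
    abel
  · intro x
    obtain ⟨c, x0, xq, xt, h0, hq, ht, rfl⟩ := hdec x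
    rw [hμx c x0 xq xt h0 hq ht]
    have h1 : c • a + x0 + xq + xt - (c • a + x0 + xq - xt) = (2 : ℝ) • xt := by module
    rw [h1, map_smul, ht]
    module
  · intro y hy
    obtain ⟨c, y0, yq, h0, hq, hyeq, hBy, hay, hU, hW⟩ := hfixed y hy
    rw [hay, hBy, map_add, map_smul, map_smul, haa, hq]
    module
  · intro y hy
    obtain ⟨c, y0, yq, h0, hq, hyeq, hBy, hay, hU, hW⟩ := hfixed y hy
    rw [hU]
    have h1 := hfus 0 m0 0 m0 y0 ((hE _ _).2 (by rw [h0, zero_smul])) y0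
      ((hE _ _).2 (by rw [h0, zero_smul]))
    rw [law00] at h1
    unfold eigenSum at h1
    rw [iSup_singleton] at h1
    have h2 := (hE _ _).1 h1
    rw [h2, zero_smul]
  · intro y hy
    obtain ⟨c, y0, yq, h0, hq, hyeq, hBy, hay, hU, hW⟩ := hfixed y hy
    rw [hU, hW]
    have h1 := hfus 0 m0 (1 / 4) mq y0 ((hE _ _).2 (by rw [h0, zero_smul])) yq ((hE _ _).2 hq)
    rw [law0q] at h1
    unfold eigenSum at h1
    rw [iSup_singleton] at h1
    exact (hE _ _).1 h1
  · intro y hy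
    obtain ⟨c, y0, yq, h0, hq, hyeq, hBy, hay, hU, hW⟩ := hfixed y hy
    rw [hW]
    have h1 := hfus (1 / 4) mq (1 / 4) mq yq ((hE _ _).2 hq) yq ((hE _ _).2 hq)
    rw [lawqq] at h1
    unfold eigenSum at h1
    rw [iSup_pair] at h1
    obtain ⟨z1, hz1, z0, hz0, hz⟩ := Submodule.mem_sup.1 h1
    rw [hprim] at hz1
    obtain ⟨c', rfl⟩ := Submodule.mem_span_singleton.1 hz1
    have hz0' : mul a z0 = 0 := by
      have h2 := (hE _ _).1 hz0
      rw [h2, zero_smul]
    have hc' : B a (mul yq yq) = c' := by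
      rw [← hz, map_add, map_smul, hn, hB0 _ hz0']; simp
    have hc'' : B a (mul yq yq) = 1 / 4 * B yq yq := by
      rw [hassoc a yq yq, hq, map_smul, LinearMap.smul_apply, smul_eq_mul]
    rw [← hz, map_add, map_smul, haa, hz0', add_zero, ← hc', hc'']

end Cfsg.Agent.H2.Sak
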