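import Mathlib

/-!
# Sakuma's theorem: the resurrection computation (helper2)

Pure linear algebra: from the multiplication table of a dihedral Majorana configuration around one
axis `a` and the three Jordan fusion identities for the fixed vector `P`, the products `a * se` and
`s * s` are expressed through `a, P, Q, s, so, se`.
-/

set_option autoImplicit false
set_option linter.unusedVariables false
set_option linter.unusedSectionVars false

namespace Cfsg.Agent.H2.Sak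

variable {V : Type*} [AddCommGroup V] [Module ℝ V]

theorem res_formulas (mul : V →ₗ[ℝ] V →ₗ[ℝ] V) (hc : ∀ u v, mul u v = mul v u)
    (a P Q s so se : V) (l1 l2 : ℝ)
    (haa : mul a a = a)
    (haP : mul a P = (2 : ℝ) • s + (1 / 16 : ℝ) • a + (1 / 32 : ℝ) • P)
    (haQ : mul a Q = (2 : ℝ) • so + (1 / 16 : ℝ) • a + (1 / 32 : ℝ) • Q)
    (has : mul a s = (7 / 32 : ℝ) • s + (3 / 4 * l1 - 25 / 1024) • a + (7 / 2048 : ℝ) • P)
    (haso : mul a so = (7 / 32 : ℝ) • so + (3 / 4 * l2 - 25 / 1024) • a + (7 / 2048 : ℝ) • Q)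
    (hPP : mul P P = (17 / 16 : ℝ) • P + (2 : ℝ) • se)
    (hPs : mul P s = (7 / 16 : ℝ) • s + (3 / 4 * l1 - 25 / 1024) • P
      + (7 / 2048 : ℝ) • ((2 : ℝ) • a + Q))
    (h00 : mul a (mul ((7 / 8 : ℝ) • P - (8 : ℝ) • s + (6 * l1 - 1 / 4) • a)
      ((7 / 8 : ℝ) • P - (8 : ℝ) • s + (6 * l1 - 1 / 4) • a)) = 0)
    (h0q : mul a (mul ((7 / 8 : ℝ) • P - (8 : ℝ) • s + (6 * l1 - 1 / 4) • a)
      ((8 : ℝ) • s + (1 / 4 - 8 * l1) • a + (1 / 8 : ℝ) • P)) =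
      (1 / 4 : ℝ) • mul ((7 / 8 : ℝ) • P - (8 : ℝ) • s + (6 * l1 - 1 / 4) • a)
      ((8 : ℝ) • s + (1 / 4 - 8 * l1) • a + (1 / 8 : ℝ) • P))
    (hqq : mul a (mul ((8 : ℝ) • s + (1 / 4 - 8 * l1) • a + (1 / 8 : ℝ) • P)
      ((8 : ℝ) • s + (1 / 4 - 8 * l1) • a + (1 / 8 : ℝ) • P)) =
      (4 * l1 - 4 * l1 ^ 2 - (1 - l2) / 16) • a) :
    mul a se = (7 / 96 : ℝ) • so + (7 / 6144 : ℝ) • Q + (32 / 3 * l1 - 19 / 48) • s
      + (1 / 6 * l1 - 19 / 3072) • P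
      + (-(32 / 3) * l1 ^ 2 + 5 / 3 * l1 - l2 / 24 - 127 / 3072) • a ∧
    mul s s = (7 / 6 * l1 ^ 2 - 7 / 384 * l1 + 7 / 1536 * l2 - 7 / 98304) • a
      + (49 / 768 * l1 - 245 / 196608) • P + (49 / 196608 : ℝ) • Q
      + (-(5 / 12) * l1 - 13 / 1536) • s - (7 / 1536 : ℝ) • so + (7 / 2048 : ℝ) • se := by
  have huu : mul ((7 / 8 : ℝ) • P - (8 : ℝ) • s + (6 * l1 - 1 / 4) • a)
      ((7 / 8 : ℝ) • P - (8 : ℝ) • s + (6 * l1 - 1 / 4) • a) =
      (49 / 64 : ℝ) • mul P P + (64 : ℝ) • mul s s + ((6 * l1 - 1 / 4) ^ 2) • mul a a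
        - (14 : ℝ) • mul P s + (2 * (7 / 8) * (6 * l1 - 1 / 4)) • mul a P
        - (16 * (6 * l1 - 1 / 4)) • mul a s := by
    simp only [map_add, map_sub, map_smul, LinearMap.add_apply, LinearMap.sub_apply,
      LinearMap.smul_apply]
    rw [hc s P, hc P a, hc s a]
    module
  have hvv : mul ((8 : ℝ) • s + (1 / 4 - 8 * l1) • a + (1 / 8 : ℝ) • P)
      ((8 : ℝ) • s + (1 / 4 - 8 * l1) • a + (1 / 8 : ℝ) • P) =
      (1 / 64 : ℝ) • mul P P + (64 : ℝ) • mul s s + ((1 / 4 - 8 * l1) ^ 2) • mul a a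
        + (2 : ℝ) • mul P s + (2 * (1 / 8) * (1 / 4 - 8 * l1)) • mul a P
        + (16 * (1 / 4 - 8 * l1)) • mul a s := by
    simp only [map_add, map_sub, map_smul, LinearMap.add_apply, LinearMap.sub_apply,
      LinearMap.smul_apply]
    rw [hc s P, hc P a, hc s a]
    module
  have huv : mul ((7 / 8 : ℝ) • P - (8 : ℝ) • s + (6 * l1 - 1 / 4) • a)
      ((8 : ℝ) • s + (1 / 4 - 8 * l1) • a + (1 / 8 : ℝ) • P) =
      (7 / 64 : ℝ) • mul P P - (64 : ℝ) • mul s s + ((6 * l1 - 1 / 4) * (1 / 4 - 8 * l1)) • mul a a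
        + (6 : ℝ) • mul P s + ((7 / 8) * (1 / 4 - 8 * l1) + (1 / 8) * (6 * l1 - 1 / 4)) • mul a P
        + (8 * (6 * l1 - 1 / 4) - 8 * (1 / 4 - 8 * l1)) • mul a s := by
    simp only [map_add, map_sub, map_smul, LinearMap.add_apply, LinearMap.sub_apply,
      LinearMap.smul_apply]
    rw [hc s P, hc P a, hc s a]
    module
  rw [huu] at h00
  rw [hvv] at hqq
  rw [huv] at h0q
  rw [haa, haP, hPP, hPs, has] at h00 hqq h0q
  simp only [map_add, map_sub, map_smul] at h00 hqq h0q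
  rw [haa, haP, haQ, has] at h00 hqq h0q
  have hY : mul a se = (7 / 96 : ℝ) • so + (7 / 6144 : ℝ) • Q + (32 / 3 * l1 - 19 / 48) • s
      + (1 / 6 * l1 - 19 / 3072) • P
      + (-(32 / 3) * l1 ^ 2 + 5 / 3 * l1 - l2 / 24 - 127 / 3072) • a := by
    linear_combination (norm := module) (2 / 3 : ℝ) • h00 - (2 / 3 : ℝ) • hqq
  refine ⟨hY, ?_⟩
  rw [hY] at h00 hqq h0q
  linear_combination (norm := module) (1 / 16 : ℝ) • h0q - (1 / 96 : ℝ) • h00 + (7 / 96 : ℝ) • hqq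

end Cfsg.Agent.H2.Sak
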