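import Mathlib
import Cfsg.Agent.H2.SakAxis
import Cfsg.Agent.H2.SakRes

/-!
# Sakuma's theorem: dihedral configurations of Majorana axes (helper2)

`DD mul B b τ`: a `ℤ`-indexed family of Majorana axes `b j` with involutions `τ j` such that
`τ j (b k) = b (2 j - k)`. We prove that `B (b j) (b k)` depends only on `|k - j|`, compute the
products and pairings of the elements `SS j k = b j * b k - (1/32)(b j + b k)`, and derive the
polynomial relations between the numbers `LL n = B (b 0) (b n)`.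
-/

set_option autoImplicit false
set_option linter.unusedVariables false
set_option linter.unusedSectionVars false
set_option linter.unusedSimpArgs false

namespace Cfsg.Agent.H2.Sak

variable {V : Type*} [AddCommGroup V] [Module ℝ V]

/-- A dihedral configuration of Majorana axes. -/
structure DD (mul : V →ₗ[ℝ] V →ₗ[ℝ] V) (B : LinearMap.BilinForm ℝ V) (b : ℤ → V)
    (τ : ℤ → V ≃ₗ[ℝ] V) : Prop where
  comm : ∀ u v, mul u v = mul v u
  symm : ∀ u v, B u v = B v u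
  assoc : ∀ u v w, B u (mul v w) = B (mul u v) w
  ax : ∀ j, MAx mul B (τ j) (b j)
  refl : ∀ j k, τ j (b k) = b (2 * j - k)

/-- `b j * b k - (1/32)(b j + b k)`. -/
noncomputable def SS (mul : V →ₗ[ℝ] V →ₗ[ℝ] V) (b : ℤ → V) (j k : ℤ) : V :=
  mul (b j) (b k) - (1 / 32 : ℝ) • (b j + b k)

/-- The inner products `B (b 0) (b n)`. -/
noncomputable def LL (B : LinearMap.BilinForm ℝ V) (b : ℤ → V) (n : ℕ) : ℝ := B (b 0) (b (n : ℤ))

theorem int_const {α : Type*} (f : ℤ → α) (h : ∀ j, f (j + 1) = f j) : ∀ j, f j = f 0 := by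
  intro j
  induction j using Int.induction_on with
  | zero => rfl
  | succ i ih => rw [h, ih]
  | pred i ih =>
    have h1 := h (-(i : ℤ) - 1)
    rw [show (-(i : ℤ) - 1 + 1) = -(i : ℤ) by ring] at h1
    rw [← h1, ih]

namespace DD

variable {mul : V →ₗ[ℝ] V →ₗ[ℝ] V} {B : LinearMap.BilinForm ℝ V} {b : ℤ → V}
  {τ : ℤ → V ≃ₗ[ℝ] V}

theorem refl' (D : DD mul B b τ) (j k k' : ℤ) (h : k + k' = 2 * j) : τ j (b k) = b k' := by
  rw [D.refl]; congr 1; omega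

theorem mul_bb (D : DD mul B b τ) (j k : ℤ) :
    mul (b j) (b k) = SS mul b j k + (1 / 32 : ℝ) • (b j + b k) := by
  unfold SS; abel

theorem SS_comm (D : DD mul B b τ) (j k : ℤ) : SS mul b j k = SS mul b k j := by
  unfold SS; rw [D.comm (b j) (b k), add_comm (b j)]

theorem SS_refl (D : DD mul B b τ) (j k k' : ℤ) (h : k + k' = 2 * j) :
    SS mul b j k = SS mul b j k' := by
  have h1 := (D.ax j).anti (b k)
  rw [D.refl' j k k' h, map_sub] at h1
  unfold SS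
  linear_combination (norm := module) h1

theorem B_refl (D : DD mul B b τ) (i j k j' k' : ℤ) (hj : j + j' = 2 * i) (hk : k + k' = 2 * i) :
    B (b j') (b k') = B (b j) (b k) := by
  have h1 := (D.ax i).mB (b j) (b k)
  rw [D.refl' i j j' hj, D.refl' i k k' hk] at h1
  exact h1

theorem mul_SS (D : DD mul B b τ) (j k k' : ℤ) (h : k + k' = 2 * j) :
    mul (b j) (SS mul b j k) = (7 / 32 : ℝ) • SS mul b j k
      + (3 / 4 * B (b j) (b k) - 25 / 1024) • b j + (7 / 2048 : ℝ) • (b k + b k') := by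
  have hfix : τ j (b k + b k') = b k + b k' := by
    rw [map_add, D.refl' j k k' h, D.refl' j k' k (by omega)]; abel
  have hq := (D.ax j).quad (b k + b k') hfix
  have hB : B (b j) (b k') = B (b j) (b k) := D.B_refl j j k j k' (by omega) h
  have h1 := D.mul_bb j k
  have h2 := D.mul_bb j k'
  rw [← D.SS_refl j k k' h] at h2
  have haa := (D.ax j).aa
  simp only [map_add] at hq
  rw [h1, h2, hB] at hq
  simp only [map_add, map_smul] at hq
  rw [haa, h1, h2] at hq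
  linear_combination (norm := module) (1 / 2 : ℝ) • hq

theorem B_SS (D : DD mul B b τ) (j k : ℤ) :
    B (SS mul b j k) (b j) = 31 / 32 * B (b j) (b k) - 1 / 32 := by
  have h1 : B (mul (b j) (b k)) (b j) = B (b j) (b k) := by
    rw [D.comm (b j) (b k), ← D.assoc, (D.ax j).aa, D.symm]
  unfold SS
  rw [map_sub, LinearMap.sub_apply, h1, map_smul, LinearMap.smul_apply, map_add,
    LinearMap.add_apply, (D.ax j).nn, D.symm (b k) (b j), smul_eq_mul]
  ring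

theorem SS_step (D : DD mul B b τ) (j j1 j2 : ℤ) (h1 : j1 = j + 1) (h2 : j2 = j + 2) :
    SS mul b j j1 = SS mul b j1 j2 := by
  rw [D.SS_comm j j1]
  exact D.SS_refl j1 j j2 (by omega)

theorem sig (D : DD mul B b τ) (j j1 : ℤ) (h1 : j1 = j + 1) : SS mul b j j1 = SS mul b 0 1 := by
  subst h1
  have h := int_const (fun i => SS mul b i (i + 1))
    (fun i => (D.SS_step i (i + 1) (i + 1 + 1) rfl (by ring)).symm) j
  simpa using h

theorem B1 (D : DD mul B b τ) (j j1 : ℤ) (h1 : j1 = j + 1) : B (b j) (b j1) = LL B b 1 := by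
  subst h1
  have h := int_const (fun i => B (b i) (b (i + 1))) (fun i => by
    show B (b (i + 1)) (b (i + 1 + 1)) = B (b i) (b (i + 1))
    rw [D.symm (b (i + 1))]
    exact D.B_refl (i + 1) i (i + 1) (i + 1 + 1) (i + 1) (by ring) (by ring)) j
  simpa [LL] using h

theorem mul_sg (D : DD mul B b τ) (m m1 m2 : ℤ) (h1 : m1 = m + 1) (h2 : m2 = m - 1) :
    mul (b m) (SS mul b 0 1) = (7 / 32 : ℝ) • SS mul b 0 1
      + (3 / 4 * LL B b 1 - 25 / 1024) • b m + (7 / 2048 : ℝ) • (b m1 + b m2) := by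
  have h := D.mul_SS m m1 m2 (by omega)
  rw [D.sig m m1 h1, D.B1 m m1 h1] at h
  exact h

theorem B_sg (D : DD mul B b τ) (k : ℤ) :
    B (SS mul b 0 1) (b k) = 31 / 32 * LL B b 1 - 1 / 32 := by
  have h := D.B_SS k (k + 1)
  rw [D.sig k (k + 1) rfl, D.B1 k (k + 1) rfl] at h
  exact h

theorem flip (D : DD mul B b τ) (j k j1 j2 k1 k2 : ℤ) (hj1 : j1 = j + 1) (hj2 : j2 = j - 1)
    (hk1 : k1 = k + 1) (hk2 : k2 = k - 1) :
    B (b j1) (b k) + B (b j2) (b k) = B (b j) (b k1) + B (b j) (b k2) := by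
  have h1 : B (mul (b j) (SS mul b 0 1)) (b k) = B (mul (b k) (SS mul b 0 1)) (b j) := by
    rw [D.comm (b j), ← D.assoc, D.comm (b k) (SS mul b 0 1), ← D.assoc, D.comm (b j) (b k)]
  rw [D.mul_sg j j1 j2 hj1 hj2, D.mul_sg k k1 k2 hk1 hk2] at h1
  simp only [map_add, map_smul, LinearMap.add_apply, LinearMap.smul_apply, smul_eq_mul] at h1
  rw [D.B_sg k, D.B_sg j, D.symm (b k1) (b j), D.symm (b k2) (b j), D.symm (b k) (b j)] at h1
  linarith

theorem shift_even (D : DD mul B b τ) (m : ℕ) : ∀ j j' k k' : ℤ, j' = j + 1 → k = j + 2 * m →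
    k' = k + 1 → B (b j') (b k') = B (b j) (b k) := by
  induction m with
  | zero =>
    intro j j' k k' hj hk hk'
    have e1 : k = j := by simpa using hk
    have e2 : k' = j' := by omega
    rw [e1, e2, (D.ax j).nn, (D.ax j').nn]
  | succ m ih =>
    intro j j' k k' hj hk hk'
    have hf := D.flip j' k (j' + 1) j k' (k - 1) rfl (by omega) hk' rfl
    have hi := ih j' (j' + 1) (k - 1) k rfl (by push_cast at hk; omega) (by omega)
    linarith

theorem shift_odd (D : DD mul B b τ) (m : ℕ) (j j' k k' : ℤ) (hj : j' = j + 1)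
    (hk : k = j + 2 * m + 1) (hk' : k' = k + 1) : B (b j') (b k') = B (b j) (b k) := by
  rw [D.symm (b j') (b k')]
  exact D.B_refl (j + m + 1) j k k' j' (by omega) (by omega)

theorem shift (D : DD mul B b τ) (n : ℕ) (j j' k k' : ℤ) (hj : j' = j + 1)
    (hk : k = j + n) (hk' : k' = k + 1) : B (b j') (b k') = B (b j) (b k) := by
  obtain ⟨m, hm | hm⟩ := Nat.even_or_odd' n
  · exact D.shift_even m j j' k k' hj (by rw [hk, hm]; push_cast; ring) hk'
  · exact D.shift_odd m j j' k k' hj (by rw [hk, hm]; push_cast; ring) hk'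

theorem Lam0 (D : DD mul B b τ) (n : ℕ) (j : ℤ) : B (b j) (b (j + n)) = LL B b n := by
  have h := int_const (fun i : ℤ => B (b i) (b (i + n)))
    (fun i => D.shift n i (i + 1) (i + n) (i + 1 + n) rfl rfl (by ring)) j
  simpa [LL] using h

/-- The inner product of two axes depends only on the distance of their indices. -/
theorem Lam (D : DD mul B b τ) (j k : ℤ) (n : ℕ) (h : k - j = n ∨ j - k = n) :
    B (b j) (b k) = LL B b n := by
  rcases h with h | h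
  · have e : k = j + n := by omega
    rw [e]; exact D.Lam0 n j
  · have e : j = k + n := by omega
    rw [e, D.symm]; exact D.Lam0 n k

theorem LL_zero (D : DD mul B b τ) : LL B b 0 = 1 := by
  unfold LL; simpa using (D.ax 0).nn

theorem SS_step2 (D : DD mul B b τ) (p q p' q' : ℤ) (hq : q = p + 2) (hp' : p' = p + 2)
    (hq' : q' = p + 4) : SS mul b p q = SS mul b p' q' := by
  have e : q = p' := by omega
  subst e
  rw [D.SS_comm p q]
  exact D.SS_refl q p q' (by omega)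

theorem SS2_const (D : DD mul B b τ) (p q : ℤ) (i : ℤ) (p' q' : ℤ) (hq : q = p + 2)
    (hp' : p' = p + 2 * i) (hq' : q' = p' + 2) : SS mul b p q = SS mul b p' q' := by
  have h := int_const (fun i : ℤ => SS mul b (p + 2 * i) (p + 2 * i + 2))
    (fun i => (D.SS_step2 (p + 2 * i) (p + 2 * i + 2) (p + 2 * (i + 1)) (p + 2 * (i + 1) + 2)
      rfl (by ring) (by ring)).symm) i
  simp only [mul_zero, add_zero] at h
  rw [hq, hq', hp', h]

theorem BS_even (D : DD mul B b τ) (p q m : ℤ) (i : ℤ) (hq : q = p + 2) (hm : m = p + 2 * i) :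
    B (SS mul b p q) (b m) = 31 / 32 * LL B b 2 - 1 / 32 := by
  rw [D.SS2_const p q i m (m + 2) hq hm rfl, D.B_SS m (m + 2), D.Lam m (m + 2) 2 (by omega)]

theorem BS_mid (D : DD mul B b τ) (p q m : ℤ) (hq : q = p + 2) (hm : m = p + 1) :
    B (SS mul b p q) (b m) = 15 / 16 * LL B b 1 + (LL B b 2 - 1) / 32 := by
  have h1 : B (mul (b p) (b q)) (b m) = B (b q) (mul (b p) (b m)) := by
    rw [D.comm (b p) (b q), ← D.assoc]
  unfold SS
  rw [map_sub, LinearMap.sub_apply, h1, D.mul_bb p m, D.sig p m hm]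
  simp only [map_add, map_smul, LinearMap.add_apply, LinearMap.smul_apply, smul_eq_mul]
  rw [D.symm (b q) (SS mul b 0 1), D.B_sg q, D.Lam q p 2 (by omega), D.Lam q m 1 (by omega),
    D.Lam p m 1 (by omega)]
  ring

theorem BS_odd (D : DD mul B b τ) (p q m : ℤ) (i : ℤ) (hq : q = p + 2)
    (hm : m = p + 2 * i + 1) :
    B (SS mul b p q) (b m) = 15 / 16 * LL B b 1 + (LL B b 2 - 1) / 32 := by
  rw [D.SS2_const p q i (m - 1) (m + 1) hq (by omega) (by omega)]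
  exact D.BS_mid (m - 1) (m + 1) m (by omega) (by omega)

theorem B_sg_SS (D : DD mul B b τ) (p q p1 p2 : ℤ) (hp1 : p1 = p + 1) (hp2 : p2 = p - 1) :
    B (SS mul b 0 1) (SS mul b p q) = 5 / 32 * (31 / 32 * LL B b 1 - 1 / 32)
      + (3 / 4 * LL B b 1 - 25 / 1024) * B (b p) (b q)
      + 7 / 2048 * (B (b p1) (b q) + B (b p2) (b q)) := by
  have h1 : B (SS mul b 0 1) (mul (b p) (b q)) = B (mul (b p) (SS mul b 0 1)) (b q) := by
    rw [D.assoc, D.comm (SS mul b 0 1) (b p)]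
  have h2 : SS mul b p q = mul (b p) (b q) - (1 / 32 : ℝ) • (b p + b q) := rfl
  rw [h2, map_sub, h1, D.mul_sg p p1 p2 hp1 hp2]
  simp only [map_add, map_smul, LinearMap.add_apply, LinearMap.smul_apply, smul_eq_mul]
  rw [D.B_sg q, D.B_sg p]
  ring

/-- `B σ σ`. -/
theorem B_sg_sg (D : DD mul B b τ) :
    B (SS mul b 0 1) (SS mul b 0 1) = 5 / 32 * (31 / 32 * LL B b 1 - 1 / 32)
      + (3 / 4 * LL B b 1 - 25 / 1024) * LL B b 1 + 7 / 2048 * (1 + LL B b 2) := by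
  rw [D.B_sg_SS 0 1 1 (-1) (by norm_num) (by norm_num), D.Lam 0 1 1 (by norm_num), (D.ax 1).nn,
    D.Lam (-1) 1 2 (by norm_num)]

/-- `B σ (SS p (p+2))`. -/
theorem B_sg_S2 (D : DD mul B b τ) (p q : ℤ) (hq : q = p + 2) :
    B (SS mul b 0 1) (SS mul b p q) = 5 / 32 * (31 / 32 * LL B b 1 - 1 / 32)
      + (3 / 4 * LL B b 1 - 25 / 1024) * LL B b 2 + 7 / 2048 * (LL B b 1 + LL B b 3) := by
  rw [D.B_sg_SS p q (p + 1) (p - 1) rfl rfl, D.Lam p q 2 (by omega), D.Lam (p + 1) q 1 (by omega),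
    D.Lam (p - 1) q 3 (by omega)]

/-- `B (SS p (p+2)) (SS p (p+2))`. -/
theorem B_S2_S2 (D : DD mul B b τ) (p q : ℤ) (hq : q = p + 2) :
    B (SS mul b p q) (SS mul b p q) = 5 / 32 * (31 / 32 * LL B b 2 - 1 / 32)
      + (3 / 4 * LL B b 2 - 25 / 1024) * LL B b 2 + 7 / 2048 * (1 + LL B b 4) := by
  have h1 : B (SS mul b p q) (mul (b p) (b q)) = B (mul (b p) (SS mul b p q)) (b q) := by
    rw [D.assoc, D.comm (SS mul b p q) (b p)]
  have h2 : SS mul b p q = mul (b p) (b q) - (1 / 32 : ℝ) • (b p + b q) := rfl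
  have h3 : B (SS mul b p q) (SS mul b p q)
      = B (SS mul b p q) (mul (b p) (b q) - (1 / 32 : ℝ) • (b p + b q)) := by
    rw [← h2]
  rw [h3, map_sub, h1, D.mul_SS p q (p - 2) (by omega)]
  simp only [map_add, map_smul, LinearMap.add_apply, LinearMap.smul_apply, smul_eq_mul]
  rw [D.BS_even p q q 1 hq (by omega), D.BS_even p q p 0 hq (by omega), D.Lam p q 2 (by omega),
    (D.ax q).nn, D.Lam (p - 2) q 4 (by omega)]
  ring

/-- `B (σ σ) (b m)`. -/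
theorem B_XX (D : DD mul B b τ) (m : ℤ) :
    B (mul (SS mul b 0 1) (SS mul b 0 1)) (b m) =
      7 / 32 * (5 / 32 * (31 / 32 * LL B b 1 - 1 / 32)
        + (3 / 4 * LL B b 1 - 25 / 1024) * LL B b 1 + 7 / 2048 * (1 + LL B b 2))
      + (3 / 4 * LL B b 1 - 25 / 1024) * (31 / 32 * LL B b 1 - 1 / 32)
      + 2 * (7 / 2048) * (31 / 32 * LL B b 1 - 1 / 32) := by
  rw [← D.assoc, D.comm (SS mul b 0 1) (b m), D.mul_sg m (m + 1) (m - 1) rfl rfl]
  simp only [map_add, map_smul, LinearMap.add_apply, LinearMap.smul_apply, smul_eq_mul]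
  rw [D.B_sg_sg, D.B_sg m, D.B_sg (m + 1), D.B_sg (m - 1)]
  ring

/-- The resurrection formulas at the centre `b j`. -/
theorem center (D : DD mul B b τ) (j jp1 jm1 jp2 jm2 : ℤ) (h1 : jp1 = j + 1) (h2 : jm1 = j - 1)
    (h3 : jp2 = j + 2) (h4 : jm2 = j - 2) (l1 l2 : ℝ) (hl1 : LL B b 1 = l1)
    (hl2 : LL B b 2 = l2) :
    mul (b j) (SS mul b jm1 jp1) = (7 / 96 : ℝ) • SS mul b j jp2
      + (7 / 6144 : ℝ) • (b jp2 + b jm2) + (32 / 3 * l1 - 19 / 48) • SS mul b 0 1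
      + (1 / 6 * l1 - 19 / 3072) • (b jp1 + b jm1)
      + (-(32 / 3) * l1 ^ 2 + 5 / 3 * l1 - l2 / 24 - 127 / 3072) • b j ∧
    mul (SS mul b 0 1) (SS mul b 0 1) =
      (7 / 6 * l1 ^ 2 - 7 / 384 * l1 + 7 / 1536 * l2 - 7 / 98304) • b j
      + (49 / 768 * l1 - 245 / 196608) • (b jp1 + b jm1) + (49 / 196608 : ℝ) • (b jp2 + b jm2)
      + (-(5 / 12) * l1 - 13 / 1536) • SS mul b 0 1 - (7 / 1536 : ℝ) • SS mul b j jp2
      + (7 / 2048 : ℝ) • SS mul b jm1 jp1 := by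
  have hfix : τ j (b jp1 + b jm1) = b jp1 + b jm1 := by
    rw [map_add, D.refl' j jp1 jm1 (by omega), D.refl' j jm1 jp1 (by omega)]; abel
  have haa := (D.ax j).aa
  have haP : mul (b j) (b jp1 + b jm1) = (2 : ℝ) • SS mul b 0 1 + (1 / 16 : ℝ) • b j
      + (1 / 32 : ℝ) • (b jp1 + b jm1) := by
    rw [map_add, D.mul_bb j jp1, D.mul_bb j jm1, D.sig j jp1 h1, D.SS_comm j jm1,
      D.sig jm1 j (by omega)]
    module
  have haQ : mul (b j) (b jp2 + b jm2) = (2 : ℝ) • SS mul b j jp2 + (1 / 16 : ℝ) • b j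
      + (1 / 32 : ℝ) • (b jp2 + b jm2) := by
    rw [map_add, D.mul_bb j jp2, D.mul_bb j jm2, ← D.SS_refl j jp2 jm2 (by omega)]
    module
  have has : mul (b j) (SS mul b 0 1) = (7 / 32 : ℝ) • SS mul b 0 1
      + (3 / 4 * l1 - 25 / 1024) • b j + (7 / 2048 : ℝ) • (b jp1 + b jm1) := by
    rw [← hl1]; exact D.mul_sg j jp1 jm1 h1 h2
  have haso : mul (b j) (SS mul b j jp2) = (7 / 32 : ℝ) • SS mul b j jp2
      + (3 / 4 * l2 - 25 / 1024) • b j + (7 / 2048 : ℝ) • (b jp2 + b jm2) := by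
    rw [← hl2, ← D.Lam j jp2 2 (by omega)]; exact D.mul_SS j jp2 jm2 (by omega)
  have hPP : mul (b jp1 + b jm1) (b jp1 + b jm1) = (17 / 16 : ℝ) • (b jp1 + b jm1)
      + (2 : ℝ) • SS mul b jm1 jp1 := by
    simp only [map_add, LinearMap.add_apply]
    rw [(D.ax jp1).aa, (D.ax jm1).aa, D.comm (b jp1) (b jm1), D.mul_bb jm1 jp1]
    module
  have hPs : mul (b jp1 + b jm1) (SS mul b 0 1) = (7 / 16 : ℝ) • SS mul b 0 1
      + (3 / 4 * l1 - 25 / 1024) • (b jp1 + b jm1)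
      + (7 / 2048 : ℝ) • ((2 : ℝ) • b j + (b jp2 + b jm2)) := by
    rw [map_add, LinearMap.add_apply, D.mul_sg jp1 jp2 j (by omega) (by omega),
      D.mul_sg jm1 j jm2 (by omega) (by omega), hl1]
    module
  have hBaP : B (b j) (b jp1 + b jm1) = 2 * l1 := by
    rw [map_add, D.Lam j jp1 1 (by omega), D.Lam j jm1 1 (by omega), hl1]; ring
  have hU : UU mul B (b j) (b jp1 + b jm1) = (7 / 8 : ℝ) • (b jp1 + b jm1)
      - (8 : ℝ) • SS mul b 0 1 + (6 * l1 - 1 / 4) • b j := by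
    unfold UU; rw [haP, hBaP]; module
  have hW : WW mul B (b j) (b jp1 + b jm1) = (8 : ℝ) • SS mul b 0 1 + (1 / 4 - 8 * l1) • b j
      + (1 / 8 : ℝ) • (b jp1 + b jm1) := by
    unfold WW; rw [haP, hBaP]; module
  have h00 := (D.ax j).f00 _ hfix
  have h0q := (D.ax j).f0q _ hfix
  have hqq := (D.ax j).fqq _ hfix
  rw [hU] at h00 h0q
  rw [hW] at h0q hqq
  have hBW : B ((8 : ℝ) • SS mul b 0 1 + (1 / 4 - 8 * l1) • b j
      + (1 / 8 : ℝ) • (b jp1 + b jm1)) ((8 : ℝ) • SS mul b 0 1 + (1 / 4 - 8 * l1) • b j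
      + (1 / 8 : ℝ) • (b jp1 + b jm1)) = 4 * (4 * l1 - 4 * l1 ^ 2 - (1 - l2) / 16) := by
    simp only [map_add, map_smul, LinearMap.add_apply, LinearMap.smul_apply, smul_eq_mul]
    rw [D.symm (b j) (SS mul b 0 1), D.symm (b jp1) (SS mul b 0 1),
      D.symm (b jm1) (SS mul b 0 1), D.symm (b jp1) (b j), D.symm (b jm1) (b j),
      D.symm (b jm1) (b jp1)]
    rw [D.B_sg_sg, D.B_sg j, D.B_sg jp1, D.B_sg jm1, (D.ax j).nn, (D.ax jp1).nn, (D.ax jm1).nn,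
      D.Lam j jp1 1 (by omega), D.Lam j jm1 1 (by omega), D.Lam jp1 jm1 2 (by omega), hl1, hl2]
    ring
  rw [hBW] at hqq
  have hqq' : mul (b j) (mul ((8 : ℝ) • SS mul b 0 1 + (1 / 4 - 8 * l1) • b j
      + (1 / 8 : ℝ) • (b jp1 + b jm1)) ((8 : ℝ) • SS mul b 0 1 + (1 / 4 - 8 * l1) • b j
      + (1 / 8 : ℝ) • (b jp1 + b jm1))) = (4 * l1 - 4 * l1 ^ 2 - (1 - l2) / 16) • b j := by
    rw [hqq]; congr 1; ring
  exact res_formulas mul D.comm (b j) (b jp1 + b jm1) (b jp2 + b jm2) (SS mul b 0 1)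
    (SS mul b j jp2) (SS mul b jm1 jp1) l1 l2 haa haP haQ has haso hPP hPs h00 h0q hqq'

theorem pairX (D : DD mul B b τ) (l1 l2 : ℝ) (hl1 : LL B b 1 = l1) (hl2 : LL B b 2 = l2)
    (k : ℤ) :
    (7 / 32 * (5 / 32 * (31 / 32 * l1 - 1 / 32) + (3 / 4 * l1 - 25 / 1024) * l1 + (7 / 2048) * (1
      + l2)) + (3 / 4 * l1 - 25 / 1024) * (31 / 32 * l1 - 1 / 32) + 2 * (7 / 2048) * (31 / 32 *
      l1 - 1 / 32)) = (7 / 6 * l1 ^ 2 - 7 / 384 * l1 + 7 / 1536 * l2 - 7 / 98304) * B (b 0) (b k)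
      + (49 / 768 * l1 - 245 / 196608) * (B (b 1) (b k) + B (b (-1)) (b k)) + (49 / 196608) * (B
      (b 2) (b k) + B (b (-2)) (b k)) + (-(5 / 12) * l1 - 13 / 1536) * (31 / 32 * l1 - 1 / 32) +
      (-(7 / 1536)) * B (SS mul b 0 2) (b k) + (7 / 2048) * B (SS mul b (-1) 1) (b k) := by
  have hX := (D.center 0 1 (-1) 2 (-2) (by norm_num) (by norm_num) (by norm_num) (by norm_num) l1 l2 hl1 hl2).2
  have h := congrArg (fun v => B v (b k)) hX
  simp only [map_add, map_sub, map_smul, LinearMap.add_apply, LinearMap.sub_apply,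
    LinearMap.smul_apply, smul_eq_mul] at h
  rw [D.B_XX k, D.B_sg k, hl1, hl2] at h
  linear_combination h

theorem eqE1 (D : DD mul B b τ) (l1 l2 l3 : ℝ) (hl1 : LL B b 1 = l1) (hl2 : LL B b 2 = l2) (hl3 : LL B b 3 = l3) :
    (7 / 32 * (5 / 32 * (31 / 32 * l1 - 1 / 32) + (3 / 4 * l1 - 25 / 1024) * l1 + (7 / 2048) * (1
      + l2)) + (3 / 4 * l1 - 25 / 1024) * (31 / 32 * l1 - 1 / 32) + 2 * (7 / 2048) * (31 / 32 *
      l1 - 1 / 32)) = (7 / 6 * l1 ^ 2 - 7 / 384 * l1 + 7 / 1536 * l2 - 7 / 98304) * l1 + (49 /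
      768 * l1 - 245 / 196608) * (1 + l2) + (49 / 196608) * (l1 + l3) + (-(5 / 12) * l1 - 13 /
      1536) * (31 / 32 * l1 - 1 / 32) + (-(7 / 1536)) * (15 / 16 * l1 + (l2 - 1) / 32) + (7 /
      2048) * (31 / 32 * l2 - 1 / 32) := by
  have h := D.pairX l1 l2 hl1 hl2 1
  rw [D.Lam 0 1 1 (by norm_num), (D.ax 1).nn, D.Lam (-1) 1 2 (by norm_num), D.Lam 2 1 1 (by norm_num), D.Lam (-2) 1 3 (by norm_num), D.BS_odd 0 2 1 0 (by norm_num) (by norm_num), D.BS_even (-1) 1 1 1 (by norm_num) (by norm_num), hl1, hl2, hl3] at h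
  linear_combination h

theorem eqE2 (D : DD mul B b τ) (l1 l2 l3 l4 : ℝ) (hl1 : LL B b 1 = l1) (hl2 : LL B b 2 = l2) (hl3 : LL B b 3 = l3) (hl4 : LL B b 4 = l4) :
    (7 / 32 * (5 / 32 * (31 / 32 * l1 - 1 / 32) + (3 / 4 * l1 - 25 / 1024) * l1 + (7 / 2048) * (1
      + l2)) + (3 / 4 * l1 - 25 / 1024) * (31 / 32 * l1 - 1 / 32) + 2 * (7 / 2048) * (31 / 32 *
      l1 - 1 / 32)) = (7 / 6 * l1 ^ 2 - 7 / 384 * l1 + 7 / 1536 * l2 - 7 / 98304) * l2 + (49 /
      768 * l1 - 245 / 196608) * (l1 + l3) + (49 / 196608) * (1 + l4) + (-(5 / 12) * l1 - 13 /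
      1536) * (31 / 32 * l1 - 1 / 32) + (-(7 / 1536)) * (31 / 32 * l2 - 1 / 32) + (7 / 2048) *
      (15 / 16 * l1 + (l2 - 1) / 32) := by
  have h := D.pairX l1 l2 hl1 hl2 2
  rw [D.Lam 0 2 2 (by norm_num), D.Lam 1 2 1 (by norm_num), D.Lam (-1) 2 3 (by norm_num), (D.ax 2).nn, D.Lam (-2) 2 4 (by norm_num), D.BS_even 0 2 2 1 (by norm_num) (by norm_num), D.BS_odd (-1) 1 2 1 (by norm_num) (by norm_num), hl1, hl2, hl3, hl4] at h
  linear_combination h

theorem eqE3 (D : DD mul B b τ) (l1 l2 l3 l4 l5 : ℝ) (hl1 : LL B b 1 = l1) (hl2 : LL B b 2 = l2) (hl3 : LL B b 3 = l3) (hl4 : LL B b 4 = l4) (hl5 : LL B b 5 = l5) :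
    (7 / 32 * (5 / 32 * (31 / 32 * l1 - 1 / 32) + (3 / 4 * l1 - 25 / 1024) * l1 + (7 / 2048) * (1
      + l2)) + (3 / 4 * l1 - 25 / 1024) * (31 / 32 * l1 - 1 / 32) + 2 * (7 / 2048) * (31 / 32 *
      l1 - 1 / 32)) = (7 / 6 * l1 ^ 2 - 7 / 384 * l1 + 7 / 1536 * l2 - 7 / 98304) * l3 + (49 /
      768 * l1 - 245 / 196608) * (l2 + l4) + (49 / 196608) * (l1 + l5) + (-(5 / 12) * l1 - 13 /
      1536) * (31 / 32 * l1 - 1 / 32) + (-(7 / 1536)) * (15 / 16 * l1 + (l2 - 1) / 32) + (7 /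
      2048) * (31 / 32 * l2 - 1 / 32) := by
  have h := D.pairX l1 l2 hl1 hl2 3
  rw [D.Lam 0 3 3 (by norm_num), D.Lam 1 3 2 (by norm_num), D.Lam (-1) 3 4 (by norm_num), D.Lam 2 3 1 (by norm_num), D.Lam (-2) 3 5 (by norm_num), D.BS_odd 0 2 3 1 (by norm_num) (by norm_num), D.BS_even (-1) 1 3 2 (by norm_num) (by norm_num), hl1, hl2, hl3, hl4, hl5] at h
  linear_combination h

theorem eqE4 (D : DD mul B b τ) (l1 l2 l3 l4 l5 l6 : ℝ) (hl1 : LL B b 1 = l1) (hl2 : LL B b 2 = l2) (hl3 : LL B b 3 = l3) (hl4 : LL B b 4 = l4) (hl5 : LL B b 5 = l5) (hl6 : LL B b 6 = l6) :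
    (7 / 32 * (5 / 32 * (31 / 32 * l1 - 1 / 32) + (3 / 4 * l1 - 25 / 1024) * l1 + (7 / 2048) * (1
      + l2)) + (3 / 4 * l1 - 25 / 1024) * (31 / 32 * l1 - 1 / 32) + 2 * (7 / 2048) * (31 / 32 *
      l1 - 1 / 32)) = (7 / 6 * l1 ^ 2 - 7 / 384 * l1 + 7 / 1536 * l2 - 7 / 98304) * l4 + (49 /
      768 * l1 - 245 / 196608) * (l3 + l5) + (49 / 196608) * (l2 + l6) + (-(5 / 12) * l1 - 13 /
      1536) * (31 / 32 * l1 - 1 / 32) + (-(7 / 1536)) * (31 / 32 * l2 - 1 / 32) + (7 / 2048) *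
      (15 / 16 * l1 + (l2 - 1) / 32) := by
  have h := D.pairX l1 l2 hl1 hl2 4
  rw [D.Lam 0 4 4 (by norm_num), D.Lam 1 4 3 (by norm_num), D.Lam (-1) 4 5 (by norm_num), D.Lam 2 4 2 (by norm_num), D.Lam (-2) 4 6 (by norm_num), D.BS_even 0 2 4 2 (by norm_num) (by norm_num), D.BS_odd (-1) 1 4 2 (by norm_num) (by norm_num), hl1, hl2, hl3, hl4, hl5, hl6] at h
  linear_combination h

theorem eqF0 (D : DD mul B b τ) (l1 l2 l3 l4 l5 : ℝ) (hl1 : LL B b 1 = l1) (hl2 : LL B b 2 = l2)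
    (hl3 : LL B b 3 = l3) (hl4 : LL B b 4 = l4) (hl5 : LL B b 5 = l5) :
    7 / 32 * (15 / 16 * l1 + (l2 - 1) / 32) + (3 / 4 * l2 - 25 / 1024) * l3 + (7 / 2048) * (l1 +
      l5) = (7 / 96) * (15 / 16 * l1 + (l2 - 1) / 32) + (7 / 6144) * (l1 + l5) + (32 / 3 * l1 -
      19 / 48) * (31 / 32 * l1 - 1 / 32) + (1 / 6 * l1 - 19 / 3072) * (l2 + l4) + (-(32 / 3) * l1
      ^ 2 + 5 / 3 * l1 - l2 / 24 - 127 / 3072) * l3 := by
  have hY := (D.center 0 1 (-1) 2 (-2) (by norm_num) (by norm_num) (by norm_num) (by norm_num) l1 l2 hl1 hl2).1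
  have h := congrArg (fun v => B v (b 3)) hY
  have he : SS mul b (-1) 1 = SS mul b 3 1 := by
    rw [D.SS2_const (-1) 1 1 1 3 (by norm_num) (by norm_num) (by norm_num), D.SS_comm 1 3]
  have hpe : B (SS mul b 3 1) (b 0) = 15 / 16 * LL B b 1 + (LL B b 2 - 1) / 32 := by
    rw [← he]; exact D.BS_odd (-1) 1 0 0 (by norm_num) (by norm_num)
  have hL : B (mul (b 0) (SS mul b (-1) 1)) (b 3) =
      7 / 32 * (15 / 16 * l1 + (l2 - 1) / 32) + (3 / 4 * l2 - 25 / 1024) * l3 + (7 / 2048) * (l1 + l5) := by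
    rw [← D.assoc, D.comm (SS mul b (-1) 1) (b 3), he, D.mul_SS 3 1 5 (by norm_num)]
    simp only [map_add, map_smul, smul_eq_mul]
    rw [D.symm (b 0) (SS mul b 3 1), hpe, D.Lam 3 1 2 (by norm_num), D.Lam 0 3 3 (by norm_num), D.Lam 0 1 1 (by norm_num), D.Lam 0 5 5 (by norm_num), hl1, hl2, hl3,
      hl5]
  simp only [map_add, map_sub, map_smul, LinearMap.add_apply, LinearMap.sub_apply,
    LinearMap.smul_apply, smul_eq_mul] at h
  rw [hL, D.BS_odd 0 2 3 1 (by norm_num) (by norm_num), D.Lam 2 3 1 (by norm_num), D.Lam (-2) 3 5 (by norm_num), D.B_sg 3, D.Lam 1 3 2 (by norm_num), D.Lam (-1) 3 4 (by norm_num), D.Lam 0 3 3 (by norm_num),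
    hl1, hl2, hl3, hl4, hl5] at h
  linear_combination h

theorem eqGa (D : DD mul B b τ) (l1 l2 l3 l4 om : ℝ) (hl1 : LL B b 1 = l1) (hl2 : LL B b 2 = l2)
    (hl3 : LL B b 3 = l3) (hl4 : LL B b 4 = l4) (hom : B (SS mul b (-1) 1) (SS mul b 0 2) = om) :
    7 / 32 * om + (3 / 4 * l2 - 25 / 1024) * (15 / 16 * l1 + (l2 - 1) / 32) + 2 * (7 / 2048) *
      (15 / 16 * l1 + (l2 - 1) / 32) = (7 / 96) * (5 / 32 * (31 / 32 * l2 - 1 / 32) + (3 / 4 * l2
      - 25 / 1024) * l2 + (7 / 2048) * (1 + l4)) + 2 * (7 / 6144) * (31 / 32 * l2 - 1 / 32) + (32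
      / 3 * l1 - 19 / 48) * (5 / 32 * (31 / 32 * l1 - 1 / 32) + (3 / 4 * l1 - 25 / 1024) * l2 +
      (7 / 2048) * (l1 + l3)) + 2 * (1 / 6 * l1 - 19 / 3072) * (15 / 16 * l1 + (l2 - 1) / 32) +
      (-(32 / 3) * l1 ^ 2 + 5 / 3 * l1 - l2 / 24 - 127 / 3072) * (31 / 32 * l2 - 1 / 32) := by
  have hY := (D.center 0 1 (-1) 2 (-2) (by norm_num) (by norm_num) (by norm_num) (by norm_num) l1 l2 hl1 hl2).1
  have h := congrArg (fun v => B v (SS mul b 0 2)) hY
  have hL : B (mul (b 0) (SS mul b (-1) 1)) (SS mul b 0 2) =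
      7 / 32 * om + (3 / 4 * l2 - 25 / 1024) * (15 / 16 * l1 + (l2 - 1) / 32) + 2 * (7 / 2048) * (15 / 16 * l1 + (l2 - 1) / 32) := by
    rw [D.comm (b 0) (SS mul b (-1) 1), ← D.assoc, D.mul_SS 0 2 (-2) (by norm_num)]
    simp only [map_add, map_smul, smul_eq_mul]
    rw [hom, D.BS_odd (-1) 1 0 0 (by norm_num) (by norm_num), D.BS_odd (-1) 1 2 1 (by norm_num) (by norm_num), D.BS_odd (-1) 1 (-2) (-1) (by norm_num) (by norm_num), D.Lam 0 2 2 (by norm_num), hl1, hl2]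
    ring
  simp only [map_add, map_sub, map_smul, LinearMap.add_apply, LinearMap.sub_apply,
    LinearMap.smul_apply, smul_eq_mul] at h
  rw [hL, D.B_S2_S2 0 2 (by norm_num), D.symm (b 2) (SS mul b 0 2), D.symm (b (-2)) (SS mul b 0 2), D.symm (b 1) (SS mul b 0 2),
    D.symm (b (-1)) (SS mul b 0 2), D.symm (b 0) (SS mul b 0 2), D.BS_even 0 2 2 1 (by norm_num) (by norm_num), D.BS_even 0 2 (-2) (-1) (by norm_num) (by norm_num), D.B_sg_S2 0 2 (by norm_num),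
    D.BS_odd 0 2 1 0 (by norm_num) (by norm_num), D.BS_odd 0 2 (-1) (-1) (by norm_num) (by norm_num), D.BS_even 0 2 0 0 (by norm_num) (by norm_num), hl1, hl2, hl3, hl4] at h
  linear_combination h

theorem eqGb (D : DD mul B b τ) (l1 l2 l3 l4 om : ℝ) (hl1 : LL B b 1 = l1) (hl2 : LL B b 2 = l2)
    (hl3 : LL B b 3 = l3) (hl4 : LL B b 4 = l4) (hom : B (SS mul b (-1) 1) (SS mul b 0 2) = om) :
    (7 / 6 * l1 ^ 2 - 7 / 384 * l1 + 7 / 1536 * l2 - 7 / 98304) * (15 / 16 * l1 + (l2 - 1) / 32)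
      + 2 * (49 / 768 * l1 - 245 / 196608) * (31 / 32 * l2 - 1 / 32) + 2 * (49 / 196608) * (15 /
      16 * l1 + (l2 - 1) / 32) + (-(5 / 12) * l1 - 13 / 1536) * (5 / 32 * (31 / 32 * l1 - 1 / 32)
      + (3 / 4 * l1 - 25 / 1024) * l2 + (7 / 2048) * (l1 + l3)) + (-(7 / 1536)) * om + (7 / 2048)
      * (5 / 32 * (31 / 32 * l2 - 1 / 32) + (3 / 4 * l2 - 25 / 1024) * l2 + (7 / 2048) * (1 +
      l4)) = (7 / 6 * l1 ^ 2 - 7 / 384 * l1 + 7 / 1536 * l2 - 7 / 98304) * (31 / 32 * l2 - 1 /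
      32) + 2 * (49 / 768 * l1 - 245 / 196608) * (15 / 16 * l1 + (l2 - 1) / 32) + 2 * (49 /
      196608) * (31 / 32 * l2 - 1 / 32) + (-(5 / 12) * l1 - 13 / 1536) * (5 / 32 * (31 / 32 * l1
      - 1 / 32) + (3 / 4 * l1 - 25 / 1024) * l2 + (7 / 2048) * (l1 + l3)) + (-(7 / 1536)) * (5 /
      32 * (31 / 32 * l2 - 1 / 32) + (3 / 4 * l2 - 25 / 1024) * l2 + (7 / 2048) * (1 + l4)) + (7
      / 2048) * om := by
  have hX0 := (D.center 0 1 (-1) 2 (-2) (by norm_num) (by norm_num) (by norm_num) (by norm_num) l1 l2 hl1 hl2).2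
  have hX1 := (D.center 1 2 0 3 (-1) (by norm_num) (by norm_num) (by norm_num) (by norm_num) l1 l2 hl1 hl2).2
  rw [← D.SS2_const (-1) 1 1 1 3 (by norm_num) (by norm_num) (by norm_num)] at hX1
  have h := congrArg (fun v => B v (SS mul b (-1) 1)) (hX0.symm.trans hX1)
  simp only [map_add, map_sub, map_smul, LinearMap.add_apply, LinearMap.sub_apply,
    LinearMap.smul_apply, smul_eq_mul] at h
  rw [D.symm (b 0) (SS mul b (-1) 1), D.symm (b 1) (SS mul b (-1) 1), D.symm (b (-1)) (SS mul b (-1) 1), D.symm (b 2) (SS mul b (-1) 1),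
    D.symm (b (-2)) (SS mul b (-1) 1), D.symm (b 3) (SS mul b (-1) 1), D.symm (SS mul b 0 2) (SS mul b (-1) 1), hom,
    D.BS_odd (-1) 1 0 0 (by norm_num) (by norm_num), D.BS_even (-1) 1 1 1 (by norm_num) (by norm_num), D.BS_even (-1) 1 (-1) 0 (by norm_num) (by norm_num), D.BS_odd (-1) 1 2 1 (by norm_num) (by norm_num), D.BS_odd (-1) 1 (-2) (-1) (by norm_num) (by norm_num), D.BS_even (-1) 1 3 2 (by norm_num) (by norm_num),
    D.B_sg_S2 (-1) 1 (by norm_num), D.B_S2_S2 (-1) 1 (by norm_num), hl1, hl2, hl3, hl4] at h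
  linear_combination h

end DD

end Cfsg.Agent.H2.Sak
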