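import Mathlib
import Cfsg.Agent.H2.SakAxis
import Cfsg.Agent.H2.SakDih
import Cfsg.Agent.H2.SakAlg

/-!
# Sakuma's theorem for Majorana involutions (helper2)

Conjugates and uniqueness of the involution of a Majorana axis, the dihedral configuration
generated by two Majorana involutions, and the bound `6` on the order of their product.
-/

set_option autoImplicit false
set_option linter.unusedVariables false
set_option linter.unusedSectionVars false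

namespace Cfsg.Agent.H2.Sak

open Cfsg.Axial

variable {V : Type*} [AddCommGroup V] [Module ℝ V]

theorem MAx.conj {mul : V →ₗ[ℝ] V →ₗ[ℝ] V} {B : LinearMap.BilinForm ℝ V} {μ : V ≃ₗ[ℝ] V}
    {a : V} (h : MAx mul B μ a) (g μ' : V ≃ₗ[ℝ] V)
    (hgm : ∀ u v, g (mul u v) = mul (g u) (g v)) (hgB : ∀ u v, B (g u) (g v) = B u v)
    (hμ' : ∀ x, μ' (g x) = g (μ x)) : MAx mul B μ' (g a) := by
  have hsurj : ∀ x, ∃ y, g y = x := fun x => ⟨g.symm x, g.apply_symm_apply x⟩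
  have hU : ∀ y, UU mul B (g a) (g y) = g (UU mul B a y) := by
    intro y; unfold UU; rw [← hgm, hgB, map_add, map_sub, map_smul, map_smul]
  have hW : ∀ y, WW mul B (g a) (g y) = g (WW mul B a y) := by
    intro y; unfold WW; rw [← hgm, hgB, map_sub, map_smul, map_smul]
  refine ⟨?_, ?_, ?_, ?_, ?_, ?_, ?_, ?_, ?_, ?_, ?_⟩
  · rw [← hgm, h.aa]
  · rw [hgB, h.nn]
  · rw [hμ', h.fix]
  · intro u v
    obtain ⟨u, rfl⟩ := hsurj u
    obtain ⟨v, rfl⟩ := hsurj v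
    rw [← hgm, hμ', hμ', hμ', h.mmul, hgm]
  · intro u v
    obtain ⟨u, rfl⟩ := hsurj u
    obtain ⟨v, rfl⟩ := hsurj v
    rw [hμ', hμ', hgB, hgB, h.mB]
  · intro x
    obtain ⟨x, rfl⟩ := hsurj x
    rw [hμ', hμ', h.invol]
  · intro x
    obtain ⟨x, rfl⟩ := hsurj x
    rw [hμ', ← map_sub, ← hgm, h.anti, map_smul]
  · intro y hy
    obtain ⟨y, rfl⟩ := hsurj y
    have hy' : μ y = y := g.injective (by rw [← hμ']; exact hy)
    rw [← hgm, ← hgm, h.quad y hy', hgB, map_add, map_smul, map_smul, hgm]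
  · intro y hy
    obtain ⟨y, rfl⟩ := hsurj y
    have hy' : μ y = y := g.injective (by rw [← hμ']; exact hy)
    rw [hU, ← hgm, ← hgm, h.f00 y hy', map_zero]
  · intro y hy
    obtain ⟨y, rfl⟩ := hsurj y
    have hy' : μ y = y := g.injective (by rw [← hμ']; exact hy)
    rw [hU, hW, ← hgm, ← hgm, h.f0q y hy', map_smul]
  · intro y hy
    obtain ⟨y, rfl⟩ := hsurj y
    have hy' : μ y = y := g.injective (by rw [← hμ']; exact hy)
    rw [hW, ← hgm, ← hgm, h.fqq y hy', map_smul, hgB]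

theorem MAx.neg_of {mul : V →ₗ[ℝ] V →ₗ[ℝ] V} {B : LinearMap.BilinForm ℝ V}
    (hassoc : ∀ u v w, B u (mul v w) = B (mul u v) w)
    {μ μ' : V ≃ₗ[ℝ] V} {a : V} (h : MAx mul B μ a) (h' : MAx mul B μ' a) (x : V) :
    μ' (x - μ x) = -(x - μ x) := by
  have hm := h.anti x
  set m := x - μ x with hmdef
  have hfix : μ' (m + μ' m) = m + μ' m := by
    rw [map_add, h'.invol]; abel
  have ham : mul a (m + μ' m) = (1 / 32 : ℝ) • (m + μ' m) := by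
    have h1 : mul a (μ' m) = μ' (mul a m) := by
      rw [h'.mmul, h'.fix]
    rw [map_add, h1, hm, map_smul, smul_add]
  have hB : B a (m + μ' m) = 0 := by
    have h1 := hassoc a a (m + μ' m)
    rw [h.aa, ham, map_smul, smul_eq_mul] at h1
    linarith
  have hq := h'.quad (m + μ' m) hfix
  rw [ham, map_smul, ham, hB] at hq
  have h0 : ((7 : ℝ) / 1024) • (m + μ' m) = 0 := by
    linear_combination (norm := module) (-1 : ℝ) • hq
  have h1 : m + μ' m = 0 := by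
    rcases smul_eq_zero.1 h0 with h2 | h2
    · norm_num at h2
    · exact h2
  exact eq_neg_of_add_eq_zero_right h1

theorem MAx.unique {mul : V →ₗ[ℝ] V →ₗ[ℝ] V} {B : LinearMap.BilinForm ℝ V}
    (hsymm : ∀ u v, B u v = B v u) (hpos : ∀ u : V, u ≠ 0 → 0 < B u u)
    (hassoc : ∀ u v w, B u (mul v w) = B (mul u v) w)
    {μ μ' : V ≃ₗ[ℝ] V} {a : V} (h : MAx mul B μ a) (h' : MAx mul B μ' a) : μ = μ' := by
  have key : ∀ p, μ p = p → μ' p = p := by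
    intro p hp
    have h2 := MAx.neg_of hassoc h' h p
    -- μ (p - μ' p) = -(p - μ' p)
    rw [map_sub, hp] at h2
    have hμq : μ (μ' p) = (2 : ℝ) • p - μ' p := by
      linear_combination (norm := module) (-1 : ℝ) • h2
    have h3 : B (μ (μ' p)) (μ (μ' p)) = B p p := by rw [h.mB, h'.mB]
    rw [hμq] at h3
    simp only [map_sub, map_smul, LinearMap.sub_apply, LinearMap.smul_apply, smul_eq_mul] at h3
    rw [h'.mB, hsymm (μ' p) p] at h3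
    have h4 : B p (μ' p) = B p p := by linarith
    have h5 : B (p - μ' p) (p - μ' p) = 0 := by
      simp only [map_sub, LinearMap.sub_apply]
      rw [h'.mB, hsymm (μ' p) p, h4]
      ring
    by_contra hne
    have h6 : p - μ' p ≠ 0 := fun h7 => hne (sub_eq_zero.1 h7).symm
    have := hpos _ h6
    linarith
  apply LinearEquiv.ext
  intro x
  have h1 := key (x + μ x) (by rw [map_add, h.invol]; abel)
  have h2 := MAx.neg_of hassoc h h' x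
  rw [map_add] at h1
  rw [map_sub] at h2
  linear_combination (norm := module) (-1 / 2 : ℝ) • h1 - (1 / 2 : ℝ) • h2

/-- In a dihedral configuration some `B (b 0) (b n)` with `1 ≤ n ≤ 6` equals `1`. -/
theorem DD.exists_eq_one {mul : V →ₗ[ℝ] V →ₗ[ℝ] V} {B : LinearMap.BilinForm ℝ V} {b : ℤ → V}
    {τ : ℤ → V ≃ₗ[ℝ] V} (D : DD mul B b τ) : ∃ n : ℕ, 1 ≤ n ∧ n ≤ 6 ∧ LL B b n = 1 := by
  have h := sak_alg (LL B b 1) (LL B b 2) (LL B b 3) (LL B b 4) (LL B b 5) (LL B b 6)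
    (B (SS mul b (-1) 1) (SS mul b 0 2))
    (D.eqE1 _ _ _ rfl rfl rfl) (D.eqE2 _ _ _ _ rfl rfl rfl rfl)
    (D.eqE3 _ _ _ _ _ rfl rfl rfl rfl rfl) (D.eqE4 _ _ _ _ _ _ rfl rfl rfl rfl rfl rfl)
    (D.eqF0 _ _ _ _ _ rfl rfl rfl rfl rfl) (D.eqGa _ _ _ _ _ rfl rfl rfl rfl rfl)
    (D.eqGb _ _ _ _ _ rfl rfl rfl rfl rfl)
  rcases h with h | h | h | h | h | h
  · exact ⟨1, by norm_num, by norm_num, h⟩
  · exact ⟨2, by norm_num, by norm_num, h⟩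
  · exact ⟨3, by norm_num, by norm_num, h⟩
  · exact ⟨4, by norm_num, by norm_num, h⟩
  · exact ⟨5, by norm_num, by norm_num, h⟩
  · exact ⟨6, by norm_num, by norm_num, h⟩

/-- Linear automorphisms preserving the product and the form. -/
def autG (mul : V →ₗ[ℝ] V →ₗ[ℝ] V) (B : LinearMap.BilinForm ℝ V) : Subgroup (V ≃ₗ[ℝ] V) where
  carrier := {g | (∀ u v, g (mul u v) = mul (g u) (g v)) ∧ ∀ u v, B (g u) (g v) = B u v}
  mul_mem' := by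
    intro g h hg hh
    refine ⟨fun u v => ?_, fun u v => ?_⟩
    · show g (h (mul u v)) = mul (g (h u)) (g (h v))
      rw [hh.1, hg.1]
    · show B (g (h u)) (g (h v)) = B u v
      rw [hg.2, hh.2]
  one_mem' := ⟨fun u v => rfl, fun u v => rfl⟩
  inv_mem' := by
    intro g hg
    refine ⟨fun u v => ?_, fun u v => ?_⟩
    · apply g.injective
      show g (g.symm (mul u v)) = g (mul (g.symm u) (g.symm v))
      rw [hg.1, g.apply_symm_apply, g.apply_symm_apply, g.apply_symm_apply]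
    · show B (g.symm u) (g.symm v) = B u v
      rw [← hg.2 (g.symm u) (g.symm v), g.apply_symm_apply, g.apply_symm_apply]

theorem dih_conj {G : Type*} [Group G] (s r : G) (hs : s * s = 1) (hsr : s * r * s = r⁻¹)
    (i : ℤ) : s * r ^ i = r ^ (-i) * s := by
  have hs' : s⁻¹ = s := inv_eq_of_mul_eq_one_left hs
  have h1 : s * r * s⁻¹ = r⁻¹ := by rw [hs']; exact hsr
  have h2 : (s * r * s⁻¹) ^ i = s * r ^ i * s⁻¹ := conj_zpow
  rw [h1, inv_zpow'] at h2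
  exact (mul_inv_eq_iff_eq_mul.1 h2.symm)

/-- The axes of the dihedral configuration generated by two involutions. -/
noncomputable def bb (μ₀ μ₁ : V ≃ₗ[ℝ] V) (a₀ a₁ : V) (j : ℤ) : V :=
  if j % 2 = 0 then ((μ₀ * μ₁) ^ (j / 2)) a₀ else ((μ₀ * μ₁) ^ ((j + 1) / 2)) a₁

/-- The involutions of the dihedral configuration generated by two involutions. -/
def tt (μ₀ μ₁ : V ≃ₗ[ℝ] V) (j : ℤ) : V ≃ₗ[ℝ] V := (μ₀ * μ₁) ^ j * μ₀

theorem bb_even (μ₀ μ₁ : V ≃ₗ[ℝ] V) (a₀ a₁ : V) (i : ℤ) :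
    bb μ₀ μ₁ a₀ a₁ (2 * i) = ((μ₀ * μ₁) ^ i) a₀ := by
  unfold bb
  rw [if_pos (by omega), show 2 * i / 2 = i by omega]

theorem bb_odd (μ₀ μ₁ : V ≃ₗ[ℝ] V) (a₀ a₁ : V) (i : ℤ) :
    bb μ₀ μ₁ a₀ a₁ (2 * i + 1) = ((μ₀ * μ₁) ^ (i + 1)) a₁ := by
  unfold bb
  rw [if_neg (by omega), show (2 * i + 1 + 1) / 2 = i + 1 by omega]

/-- Sakuma's theorem for Majorana involutions: the product of two Majorana involutions (with
axes of norm `1`) has order at most `6`. -/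
theorem sakuma (mul : V →ₗ[ℝ] V →ₗ[ℝ] V) (B : LinearMap.BilinForm ℝ V)
    (hV : IsMajoranaAmbient mul B) (μ₀ μ₁ : V ≃ₗ[ℝ] V) (a₀ a₁ : V)
    (h₀ : IsMajoranaPair mul B μ₀ a₀) (h₁ : IsMajoranaPair mul B μ₁ a₁)
    (hn₀ : B a₀ a₀ = 1) (hn₁ : B a₁ a₁ = 1) :
    ∃ n : ℕ, 1 ≤ n ∧ n ≤ 6 ∧ (μ₀ * μ₁) ^ n = 1 := by
  have m0 := MAx.of_pair hV h₀ hn₀
  have m1 := MAx.of_pair hV h₁ hn₁
  obtain ⟨hcomm, hsymm, hpos, hassoc, -⟩ := hV
  have hμ₀ : μ₀ * μ₀ = 1 := LinearEquiv.ext (fun x => m0.invol x)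
  have hμ₁ : μ₁ * μ₁ = 1 := LinearEquiv.ext (fun x => m1.invol x)
  have hi0 : μ₀⁻¹ = μ₀ := inv_eq_of_mul_eq_one_left hμ₀
  have hi1 : μ₁⁻¹ = μ₁ := inv_eq_of_mul_eq_one_left hμ₁
  have hc0 : ∀ i : ℤ, μ₀ * (μ₀ * μ₁) ^ i = (μ₀ * μ₁) ^ (-i) * μ₀ := by
    refine dih_conj μ₀ (μ₀ * μ₁) hμ₀ ?_
    rw [mul_inv_rev, hi0, hi1, ← mul_assoc, hμ₀, one_mul]
  have hA0 : μ₀ ∈ autG mul B := ⟨m0.mmul, m0.mB⟩
  have hA1 : μ₁ ∈ autG mul B := ⟨m1.mmul, m1.mB⟩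
  have hAρ : ∀ i : ℤ, (μ₀ * μ₁) ^ i ∈ autG mul B :=
    fun i => Subgroup.zpow_mem _ (Subgroup.mul_mem _ hA0 hA1) i
  have hax : ∀ j, MAx mul B (tt μ₀ μ₁ j) (bb μ₀ μ₁ a₀ a₁ j) := by
    intro j
    obtain ⟨i, rfl | rfl⟩ := Int.even_or_odd' j
    · rw [bb_even]
      refine m0.conj ((μ₀ * μ₁) ^ i) _ (hAρ i).1 (hAρ i).2 ?_
      have hg : (μ₀ * μ₁) ^ (2 * i) * μ₀ * (μ₀ * μ₁) ^ i = (μ₀ * μ₁) ^ i * μ₀ := by
        rw [mul_assoc, hc0, ← mul_assoc, ← zpow_add]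
        congr 2; ring
      intro x
      exact congrArg (fun f : V ≃ₗ[ℝ] V => f x) hg
    · rw [bb_odd]
      refine m1.conj ((μ₀ * μ₁) ^ (i + 1)) _ (hAρ (i + 1)).1 (hAρ (i + 1)).2 ?_
      have hg : (μ₀ * μ₁) ^ (2 * i + 1) * μ₀ * (μ₀ * μ₁) ^ (i + 1) = (μ₀ * μ₁) ^ (i + 1) * μ₁ := by
        rw [mul_assoc, hc0, ← mul_assoc, ← zpow_add, zpow_add_one (μ₀ * μ₁) i]
        rw [mul_assoc ((μ₀ * μ₁) ^ i), mul_assoc μ₀ μ₁ μ₁, hμ₁, mul_one]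
        congr 2; ring
      intro x
      exact congrArg (fun f : V ≃ₗ[ℝ] V => f x) hg
  have hrefl : ∀ j k, tt μ₀ μ₁ j (bb μ₀ μ₁ a₀ a₁ k) = bb μ₀ μ₁ a₀ a₁ (2 * j - k) := by
    intro j k
    obtain ⟨i, rfl | rfl⟩ := Int.even_or_odd' k
    · rw [show 2 * j - 2 * i = 2 * (j - i) by ring, bb_even, bb_even]
      have hg : (μ₀ * μ₁) ^ j * μ₀ * (μ₀ * μ₁) ^ i = (μ₀ * μ₁) ^ (j - i) * μ₀ := by
        rw [mul_assoc, hc0, ← mul_assoc, ← zpow_add]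
        congr 2
      have h2 := congrArg (fun f : V ≃ₗ[ℝ] V => f a₀) hg
      have h3 : ((μ₀ * μ₁) ^ (j - i) * μ₀) a₀ = ((μ₀ * μ₁) ^ (j - i)) a₀ := by
        show ((μ₀ * μ₁) ^ (j - i)) (μ₀ a₀) = _
        rw [m0.fix]
      exact h2.trans h3
    · rw [show 2 * j - (2 * i + 1) = 2 * (j - i - 1) + 1 by ring, bb_odd, bb_odd]
      have hg : (μ₀ * μ₁) ^ j * μ₀ * (μ₀ * μ₁) ^ (i + 1) * μ₁
          = (μ₀ * μ₁) ^ (j - i - 1 + 1) := by
        rw [mul_assoc ((μ₀ * μ₁) ^ j), hc0, ← mul_assoc, ← zpow_add, mul_assoc,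
          zpow_add_one (μ₀ * μ₁) (j - i - 1)]
        congr 2; ring
      have h2 := congrArg (fun f : V ≃ₗ[ℝ] V => f a₁) hg
      have h3 : ((μ₀ * μ₁) ^ j * μ₀ * (μ₀ * μ₁) ^ (i + 1) * μ₁) a₁
          = ((μ₀ * μ₁) ^ j * μ₀ * (μ₀ * μ₁) ^ (i + 1)) a₁ := by
        show ((μ₀ * μ₁) ^ j * μ₀ * (μ₀ * μ₁) ^ (i + 1)) (μ₁ a₁) = _
        rw [m1.fix]
      exact h3.symm.trans h2
  have D : DD mul B (bb μ₀ μ₁ a₀ a₁) (tt μ₀ μ₁) := ⟨hcomm, hsymm, hassoc, hax, hrefl⟩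
  obtain ⟨n, hn1, hn6, hL⟩ := D.exists_eq_one
  refine ⟨n, hn1, hn6, ?_⟩
  have hb : bb μ₀ μ₁ a₀ a₁ n = bb μ₀ μ₁ a₀ a₁ 0 := by
    by_contra hne
    have h5 := hpos _ (sub_ne_zero.2 hne)
    simp only [map_sub, LinearMap.sub_apply] at h5
    rw [(D.ax n).nn, (D.ax 0).nn, hsymm (bb μ₀ μ₁ a₀ a₁ n) (bb μ₀ μ₁ a₀ a₁ 0)] at h5
    have h6 : B (bb μ₀ μ₁ a₀ a₁ 0) (bb μ₀ μ₁ a₀ a₁ n) = 1 := hL
    rw [h6] at h5
    norm_num at h5
  have hτ : tt μ₀ μ₁ n = tt μ₀ μ₁ 0 :=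
    MAx.unique hsymm hpos hassoc (D.ax n) (by rw [hb]; exact D.ax 0)
  unfold tt at hτ
  rw [zpow_zero, one_mul, zpow_natCast] at hτ
  exact mul_right_cancel (hτ.trans (one_mul μ₀).symm)

end Cfsg.Agent.H2.Sak
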